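import Cfsg.Agent.MaxSub.CSixFive.Normal
import Cfsg.Agent.MaxSub.SymplecticType

/-!
An absolutely irreducible `5^{1+2}` of exponent five in `GL₅` is conjugate to the standard one.
-/

set_option autoImplicit false
set_option linter.unusedSectionVars false
set_option linter.style.haveILetI false

namespace Cfsg.Agent.MaxSub.CSixFive

open Matrix Cfsg.Geo
open scoped MatrixGroups Fin.CommRing Fin.NatCast commutatorElement

variable {F : Type*} [Field F] [Fintype F]

theorem exists_std {R : Subgroup (GL (Fin 5) F)} (hR : IsLinearSymplecticTypeData 5 R)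
    {p : ℕ} (hp : p.Prime) (hcard : Fintype.card F = p) (hp5 : p % 5 = 1) :
    ∃ (S : Root5 F) (P : GL (Fin 5) F), S.Rs.map (MulAut.conj P).toMonoidHom = R := by
  classical
  obtain ⟨hst, hirr, q, e, hrq, hmin, hcase⟩ := id hR
  obtain ⟨hZ, m, hm1, hRc⟩ : Nat.card (Subgroup.center R) = 5 ∧ ∃ m, 1 ≤ m ∧ Nat.card R = 5 ^ (1 + 2 * m) := by
    rcases hcase with ⟨-, -, hZ, h⟩ | ⟨h, -⟩ | ⟨h, -⟩
    · exact ⟨hZ, h⟩
    · exact absurd h (by norm_num)
    · exact absurd h (by norm_num)
  have h5 : Fact (Nat.Prime 5) := ⟨by norm_num⟩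
  haveI : Group.IsNilpotent R := hst.pGroup.isNilpotent
  have hexp : Monoid.exponent R = 5 := by rw [hst.exponent_eq]; norm_num
  have hcl := commutator_le_center_of_cyclic_char hst.cyclic_of_characteristic (hexp.trans hZ.symm)
  have hp5' : p ≠ 5 := fun h => by simp [h] at hp5
  haveI hcharp : CharP F p := by
    obtain ⟨c, hc⟩ := CharP.exists F
    obtain ⟨k, hcp, hk⟩ := FiniteField.card F c
    have hcp' : c = p := (Nat.prime_dvd_prime_iff_eq hcp hp).1
      (by rw [← hcard, hk]; exact dvd_pow_self c k.ne_zero)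
    exact hcp' ▸ hc
  have hF5 : (5 : F) ≠ 0 := fun h => hp5' ((Nat.prime_dvd_prime_iff_eq hp h5.out).1
    ((CharP.cast_eq_zero_iff F p 5).1 (by exact_mod_cast h)))
  have hF2 : (2 : F) ≠ 0 := fun h => by
    have := (Nat.prime_dvd_prime_iff_eq hp Nat.prime_two).1
      ((CharP.cast_eq_zero_iff F p 2).1 (by exact_mod_cast h))
    omega
  -- two elements which do not commute
  obtain ⟨a, b, hab⟩ : ∃ a b : R, b * a ≠ a * b := by
    by_contra hc
    push Not at hc
    have h1 : Subgroup.center R = ⊤ := eq_top_iff.2 fun x _ => Subgroup.mem_center_iff.2 fun y => hc x y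
    have : Nat.card R = 5 := by
      have h := hZ
      rwa [h1, Subgroup.card_top] at h
    rw [hRc] at this
    exact absurd ((Nat.pow_eq_self_iff (by norm_num : 1 < 5)).1 this) (by omega)
  set A : Matrix (Fin 5) (Fin 5) F := ((a : GL (Fin 5) F) : Matrix (Fin 5) (Fin 5) F) with hA
  set B : Matrix (Fin 5) (Fin 5) F := ((b : GL (Fin 5) F) : Matrix (Fin 5) (Fin 5) F) with hB
  have hmemc : ⁅b, a⁆ ∈ Subgroup.center R :=
    hcl (Subgroup.commutator_mem_commutator (Subgroup.mem_top _) (Subgroup.mem_top _))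
  obtain ⟨ζ, hζ⟩ := exists_scalar_of_mem_center hirr hmemc
  have hBA : B * A = ζ • (A * B) := by
    have e : b * a = ⁅b, a⁆ * (a * b) := by rw [commutatorElement_def]; group
    have := congrArg (fun x : R => ((x : GL (Fin 5) F) : Matrix (Fin 5) (Fin 5) F)) e
    simp only [Subgroup.coe_mul, Units.val_mul, hζ, Matrix.smul_mul, Matrix.one_mul] at this
    exact this
  have pow5 : ∀ x : R, ((x : GL (Fin 5) F) : Matrix (Fin 5) (Fin 5) F) ^ 5 = 1 := fun x => by
    have := Monoid.pow_exponent_eq_one x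
    rw [hexp] at this
    simpa using congrArg (fun y : R => ((y : GL (Fin 5) F) : Matrix (Fin 5) (Fin 5) F)) this
  have hζ5 : ζ ^ 5 = 1 := by
    have h := pow5 ⁅b, a⁆
    rw [hζ, smul_pow, one_pow] at h
    exact smul_left_injective F (one_ne_zero (α := Matrix (Fin 5) (Fin 5) F)) (by simpa using h)
  have hζ1 : ζ ≠ 1 := fun h => hab (Subtype.ext (Units.ext (by
    rw [Subgroup.coe_mul, Subgroup.coe_mul, Units.val_mul, Units.val_mul, ← hA, ← hB, hBA, h, one_smul])))
  let S : Root5 F := ⟨ζ, hζ5, hζ1, hF2, hF5⟩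
  -- an eigenvector of `b`
  obtain ⟨i, v, hv0, hv⟩ : ∃ (i : Fin 5) (v : Fin 5 → F), v ≠ 0 ∧ B *ᵥ v = S.e i • v := by
    by_contra hc
    push Not at hc
    have hinj : ∀ i : Fin 5, Function.Injective fun v => B *ᵥ v - S.e i • v := fun i v w h => by
      refine sub_eq_zero.1 (by_contra fun hne => hc i _ hne ?_)
      simp only [mulVec_sub, smul_sub] at h ⊢
      rw [sub_eq_sub_iff_sub_eq_sub] at h
      exact h
    -- the sum of the powers of `ω⁻ⁱ B` is an eigenvector or zero
    have hz : ∀ i : Fin 5, (∑ n : Fin 5, S.e (-(i * n)) • B ^ (n : ℕ)) = 0 := by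
      intro i
      apply Matrix.toLin'.injective
      refine LinearMap.ext fun v => hinj i ?_
      simp only [map_zero, LinearMap.zero_apply, mulVec_zero, smul_zero, sub_zero, Matrix.toLin'_apply]
      rw [sub_eq_zero, mulVec_mulVec, ← smul_mulVec]
      congr 1
      simp only [Finset.mul_sum, Finset.smul_sum, Matrix.mul_smul, ← pow_succ', smul_smul]
      refine Fintype.sum_bijective (fun n : Fin 5 => n + 1) (AddGroup.addRight_bijective 1) _ _ fun n => ?_
      rw [← S.e_add]
      congr 1
      · congr 1; ring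
      · fin_cases n <;> first | rfl | exact (pow_zero B).trans (pow5 b).symm | exact (pow5 b).trans (pow_zero B).symm
    have htot : (∑ i : Fin 5, ∑ n : Fin 5, S.e (-(i * n)) • B ^ (n : ℕ)) = (5 : F) • (1 : Matrix (Fin 5) (Fin 5) F) := by
      rw [Finset.sum_comm, Finset.sum_eq_single (0 : Fin 5)]
      · simp [S.e_zero, ← Nat.cast_smul_eq_nsmul F]
      · intro n _ hn
        rw [← Finset.sum_smul]
        have : ∀ j : Fin 5, S.e (-(j * n)) = S.e ((-n) * j) := fun j => by congr 1; ring
        simp only [this]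
        rw [S.e_sum (neg_ne_zero.2 hn), zero_smul]
      · simp
    rw [Finset.sum_eq_zero fun i _ => hz i] at htot
    have := congrFun (congrFun htot 0) 0
    simp at this
    exact hF5 this.symm
  set w : Fin 5 → (Fin 5 → F) := fun k => (A ^ (k : ℕ)) *ᵥ v with hw
  have hA5 : A ^ 5 = 1 := pow5 a
  have hAw : ∀ k, A *ᵥ w k = w (k + 1) := by
    intro k
    simp only [hw, mulVec_mulVec, ← pow_succ']
    congr 1
    fin_cases k <;> first | rfl | exact hA5.trans (pow_zero A).symm
  have hBw : ∀ k : Fin 5, B *ᵥ w k = S.e (i + k) • w k := by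
    have h : ∀ n : ℕ, B *ᵥ ((A ^ n) *ᵥ v) = S.e (i + (n : Fin 5)) • ((A ^ n) *ᵥ v) := by
      intro n
      induction n with
      | zero => simpa using hv
      | succ n ih =>
        rw [pow_succ', ← mulVec_mulVec, mulVec_mulVec _ B A, hBA, smul_mulVec, ← mulVec_mulVec, ih,
          mulVec_smul, smul_smul, show ζ = S.e 1 from S.e_one.symm, ← S.e_add, mulVec_mulVec,
          ← pow_succ', Nat.cast_succ]
        congr 2; ring
    intro k
    simpa [hw] using h (k : ℕ)
  have hw0 : ∀ k, w k ≠ 0 := fun k h0 => hv0 (by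
    have := congrArg (fun x => A ^ (5 - (k : ℕ)) *ᵥ x) h0
    simpa [hw, mulVec_mulVec, ← pow_add, Nat.sub_add_cancel k.2.le, hA5] using this)
  have hli : LinearIndependent F w := by
    refine Module.End.eigenvectors_linearIndependent' (Matrix.toLin' B) (fun k : Fin 5 => S.e (i + k))
      (fun k l h => add_left_cancel (S.e_inj h)) w fun k => ⟨?_, hw0 k⟩
    rw [Module.End.mem_eigenspace_iff, Matrix.toLin'_apply, hBw]
  set P0 : Matrix (Fin 5) (Fin 5) F := of fun r k => w k r with hP0
  have hPu : IsUnit P0 := by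
    refine Matrix.linearIndependent_cols_iff_isUnit.1 ?_
    exact hli
  set P : GL (Fin 5) F := hPu.unit with hP
  have hPA : (a : GL (Fin 5) F) * P = P * gA := by
    refine Units.ext (Matrix.ext fun r k => ?_)
    rw [Units.val_mul, Units.val_mul, mul_gA_apply]
    show (A * P0) r k = P0 r (k + 1)
    have := congrFun (hAw k) r
    simpa [mul_apply, mulVec, dotProduct, hP0] using this
  have hPB : (b : GL (Fin 5) F) * P = P * (S.dG fun k => i + k) := by
    refine Units.ext (Matrix.ext fun r k => ?_)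
    rw [Units.val_mul, Units.val_mul, S.val_dG, mul_diagonal]
    show (B * P0) r k = P0 r k * _
    have := congrFun (hBw k) r
    simp only [mulVec, dotProduct, Pi.smul_apply, smul_eq_mul] at this
    simp only [mul_apply, hP0, of_apply]
    rw [this, mul_comm]
  have hel : S.dG (fun k => i + k) = S.el i 1 0 := by simp [Root5.el]
  refine ⟨S, P, ?_⟩
  have hcA : (MulAut.conj P) gA = (a : GL (Fin 5) F) := by
    rw [MulAut.conj_apply, ← hPA, mul_inv_cancel_right]
  have hcB : (MulAut.conj P) (S.el i 1 0) = (b : GL (Fin 5) F) := by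
    rw [MulAut.conj_apply, ← hel, ← hPB, mul_inv_cancel_right]
  have hle : S.Rs ≤ R.comap (MulAut.conj P).toMonoidHom := by
    have hAm : gA ∈ R.comap (MulAut.conj P).toMonoidHom := by
      rw [Subgroup.mem_comap]; show MulAut.conj P gA ∈ R; rw [hcA]; exact a.2
    have hBm : S.el i 1 0 ∈ R.comap (MulAut.conj P).toMonoidHom := by
      rw [Subgroup.mem_comap]; show MulAut.conj P (S.el i 1 0) ∈ R; rw [hcB]; exact b.2
    have hZm : S.gZ ∈ R.comap (MulAut.conj P).toMonoidHom := by
      rw [show S.gZ = S.el i 1 0 * gA * (S.el i 1 0)⁻¹ * gA⁻¹ by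
        rw [eq_mul_inv_iff_mul_eq, eq_mul_inv_iff_mul_eq, S.gA_eq, S.gZ_eq, S.el_mul, S.el_mul,
          S.el_mul]
        congr 1 <;> ring]
      exact mul_mem (mul_mem (mul_mem hBm hAm) (inv_mem hBm)) (inv_mem hAm)
    refine S.Rs_le ?_ hAm
    rw [show S.gX = (S.gZ ^ ((-i : Fin 5) : ℕ)) * S.el i 1 0 by
      rw [S.gZ_pow, S.el_mul, S.gX_eq]; simp]
    exact mul_mem (pow_mem hZm _) hBm
  refine Subgroup.eq_of_le_of_card_ge (Subgroup.map_le_iff_le_comap.2 hle) ?_
  rw [Subgroup.card_map_of_injective (MulAut.conj P).injective]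
  have hidx := sq_card_eq_index_center hirr hcl
  have hR125 : Nat.card R = 125 := by
    rw [← Subgroup.card_mul_index (Subgroup.center R), hZ, ← hidx, Fintype.card_fin]; norm_num
  have hinj : Function.Injective (fun x : Fin 5 × Fin 5 × Fin 5 => (⟨S.el x.1 x.2.1 x.2.2, S.el_mem _ _ _⟩ : S.Rs)) := by
    rintro ⟨c, x, y⟩ ⟨c', x', y'⟩ h
    have h' := fun r k => congrArg (fun g : S.Rs => ((g : GL (Fin 5) F) : Matrix (Fin 5) (Fin 5) F) r k) h
    simp only [S.el_apply] at h'
    have hy : y = y' := by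
      by_contra hne
      have := h' y 0
      rw [if_pos (zero_add y).symm, if_neg (by simpa using hne)] at this
      exact S.e_ne _ this
    subst hy
    have h0 := h' 0 (0 - y)
    have h1 := h' 1 (1 - y)
    simp only [sub_add_cancel, if_true] at h0 h1
    have e0 := S.e_inj h0
    have e1 := S.e_inj h1
    simp only [mul_zero, add_zero] at e0
    subst e0
    simp only [mul_one, add_right_inj] at e1
    subst e1
    rfl
  have hcard' := Nat.card_le_card_of_injective _ hinj
  simp only [Nat.card_prod, Nat.card_eq_fintype_card, Fintype.card_fin] at hcard'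
  rw [hR125]
  simpa [Nat.card_eq_fintype_card] using hcard'

end Cfsg.Agent.MaxSub.CSixFive
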