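import Cfsg.Agent.MaxSub.CSixFive.Signs
import Cfsg.Agent.MaxSub.CSixFive.Std
import Cfsg.Agent.Invol.RankOneQuot

/-!
The normaliser of `5^{1+2}` is maximal in `SL₅(p)`: the final step.

The two facts about the centraliser of the parity `J` in an overgroup without transvections
(`J` is its only involution up to `1`, and its odd normal subgroups are scalar) are hypotheses here.
-/

set_option autoImplicit false
set_option linter.unusedSectionVars false
set_option linter.style.haveILetI false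

namespace Cfsg.Agent.MaxSub.CSixFive

open Matrix Cfsg.Geo
open scoped MatrixGroups Fin.CommRing Fin.NatCast commutatorElement

variable {F : Type*} [Field F]

namespace Root5

variable (R : Root5 F)

theorem el_inv (c a b : Fin 5) : (R.el c a b)⁻¹ = R.el (-c - a * b) (-a) (-b) := by
  refine inv_eq_of_mul_eq_one_right ?_
  rw [el_mul, ← el_zero]
  congr 1 <;> ring

theorem gJ_mul_el (c a b : Fin 5) : gJ * R.el c a b = R.el c (-a) (-b) * gJ := by
  refine Units.ext (Matrix.ext fun i j => ?_)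
  simp only [Units.val_mul, gJ_mul_apply, mul_gJ_apply, el_apply]
  refine if_congr ⟨fun h => by linear_combination -h, fun h => by linear_combination -h⟩ ?_ rfl
  congr 1; ring

theorem gJ_comm_el (c a b : Fin 5) :
    gJ * R.el c a b * gJ⁻¹ * (R.el c a b)⁻¹ = R.el (-2 * a * b) (-2 * a) (-2 * b) := by
  rw [R.gJ_mul_el, mul_inv_cancel_right, el_inv, el_mul]
  congr 1 <;> ring

theorem val_el_central (c : Fin 5) :
    (R.el c 0 0 : Matrix (Fin 5) (Fin 5) F) = R.e c • 1 := by
  ext i j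
  simp [el_apply, Matrix.one_apply]

theorem scalar_eq_el {g : GL (Fin 5) F} (hg : g ∈ specialLinear (Fin 5) F) {c : F}
    (hc : (g : Matrix (Fin 5) (Fin 5) F) = c • 1) : ∃ k, g = R.el k 0 0 := by
  have h := GeoClasses.mem_specialLinear_iff.1 hg
  rw [hc, det_smul, det_one, mul_one, Fintype.card_fin] at h
  obtain ⟨k, rfl⟩ := R.exists_e h
  exact ⟨k, Units.ext (by rw [hc, R.val_el_central])⟩

theorem det_el (c a b : Fin 5) : R.el c a b ∈ specialLinear (Fin 5) F := by
  rw [el_split]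
  exact mul_mem (mul_mem (pow_mem (GeoClasses.mem_specialLinear_iff.2 R.det_gZ) _)
    (pow_mem (GeoClasses.mem_specialLinear_iff.2 R.det_gX) _))
    (pow_mem (GeoClasses.mem_specialLinear_iff.2 det_gA) _)

/-- An element commuting with `X` and `A` is scalar. -/
theorem scalar_of_commute {g : GL (Fin 5) F} (hX : Commute g R.gX) (hA : Commute g gA) :
    (g : Matrix (Fin 5) (Fin 5) F) = (g : Matrix (Fin 5) (Fin 5) F) 0 0 • 1 := by
  have hd := R.commute_dG_iff.1 hX
  have hs : ∀ i : Fin 5, (g : Matrix (Fin 5) (Fin 5) F) (i + 1) (i + 1) =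
      (g : Matrix (Fin 5) (Fin 5) F) i i := by
    intro i
    have h := congrArg (fun x : GL (Fin 5) F => (x : Matrix (Fin 5) (Fin 5) F) (i + 1) i) hA.eq
    simpa [Units.val_mul, mul_gA_apply, gA_mul_apply] using h
  have hall : ∀ i : Fin 5, (g : Matrix (Fin 5) (Fin 5) F) i i = (g : Matrix (Fin 5) (Fin 5) F) 0 0 := by
    intro i
    have h : ∀ n : ℕ, (g : Matrix (Fin 5) (Fin 5) F) (n : Fin 5) (n : Fin 5) =
        (g : Matrix (Fin 5) (Fin 5) F) 0 0 := by
      intro n
      induction n with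
      | zero => simp
      | succ n ih => rw [Nat.cast_succ, hs, ih]
    simpa using h (i : ℕ)
  ext i j
  by_cases hij : i = j
  · subst hij; simp [hall i]
  · simp [hd i j hij, Matrix.one_apply_ne hij]

/-- Modulo the centre, only `5^{1+2}` itself centralises `X` and `A`. -/
theorem mem_Rs_of_comm {o : GL (Fin 5) F} (ho : o ∈ specialLinear (Fin 5) F) {k l : Fin 5}
    (hX : o * R.gX = R.el k 0 0 * (R.gX * o)) (hA : o * gA = R.el l 0 0 * (gA * o)) :
    o ∈ R.Rs := by
  have hh : ∀ g : GL (Fin 5) F, ∀ c : Fin 5, g * R.el c 0 0 = R.el c 0 0 * g := fun g c =>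
    Units.ext (by simp [R.val_el_central])
  set y := (R.el 0 l (-k))⁻¹ * o with hy
  have hyX : R.el 0 l (-k) * R.gX = R.el k 0 0 * (R.gX * R.el 0 l (-k)) := by
    rw [R.gX_eq, R.el_mul, R.el_mul, R.el_mul]; congr 1 <;> ring
  have hyA : R.el 0 l (-k) * gA = R.el l 0 0 * (gA * R.el 0 l (-k)) := by
    rw [R.gA_eq, R.el_mul, R.el_mul, R.el_mul]; congr 1 <;> ring
  have key : ∀ {g : GL (Fin 5) F} {c : Fin 5}, o * g = R.el c 0 0 * (g * o) →
      R.el 0 l (-k) * g = R.el c 0 0 * (g * R.el 0 l (-k)) → Commute y g := by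
    intro g c h1 h2
    have h3 : (R.el 0 l (-k))⁻¹ * (g * R.el c 0 0) = g * (R.el 0 l (-k))⁻¹ := by
      rw [inv_mul_eq_iff_eq_mul, ← mul_assoc, h2, ← mul_assoc (R.el c 0 0), mul_inv_cancel_right,
        hh g c]
    show y * g = g * y
    rw [hy, mul_assoc, h1, ← mul_assoc (R.el c 0 0), ← hh g c, ← mul_assoc, h3, mul_assoc]
  have hymem : y ∈ specialLinear (Fin 5) F := mul_mem (inv_mem (R.det_el _ _ _)) ho
  obtain ⟨c, hc⟩ := R.scalar_eq_el hymem (R.scalar_of_commute (key hX hyX) (key hA hyA))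
  rw [show o = R.el 0 l (-k) * y by rw [hy, mul_inv_cancel_left], hc]
  exact mul_mem (R.el_mem _ _ _) (R.el_mem _ _ _)

theorem transvection_not_mem :
    ∃ t : GL (Fin 5) F, t ∈ specialLinear (Fin 5) F ∧
      t ∉ Subgroup.normalizer (R.Rs : Set (GL (Fin 5) F)) := by
  have hdet : (Matrix.transvection (0 : Fin 5) 1 (1 : F)).det = 1 :=
    Matrix.det_transvection_of_ne _ _ (by decide) _
  let t : GL (Fin 5) F := ((Matrix.isUnit_iff_isUnit_det _).2 (hdet ▸ isUnit_one)).unit
  have ht : (t : Matrix (Fin 5) (Fin 5) F) = Matrix.transvection 0 1 (1 : F) := rfl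
  refine ⟨t, GeoClasses.mem_specialLinear_iff.2 (ht ▸ hdet), fun hn => ?_⟩
  obtain ⟨c, a, b, e⟩ := (Subgroup.mem_normalizer_iff.1 hn R.gX).1 R.gX_mem
  have e' : (t * R.gX : GL (Fin 5) F) = R.el c a b * t := by
    rw [← e, inv_mul_cancel_right]
  have h := fun i j => congrArg (fun x : GL (Fin 5) F => (x : Matrix (Fin 5) (Fin 5) F) i j) e'
  have hX : (R.gX : Matrix (Fin 5) (Fin 5) F) = diagonal fun i => R.e i := rfl
  have h00 := h 0 0
  have h01 := h 0 1
  simp only [Units.val_mul, ht, hX, mul_diagonal, Matrix.transvection, Matrix.mul_add,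
    Matrix.mul_one, Matrix.add_apply, el_apply] at h00 h01
  simp [Matrix.single_apply, Matrix.mul_apply, R.e_zero, R.e_one, Matrix.one_apply, el_apply]
    at h00 h01
  by_cases hb : b = 0
  · subst hb
    simp at h00 h01
    exact R.ne_one (h01.trans h00.symm)
  · rw [if_neg (fun h : (0 : Fin 5) = b => hb h.symm)] at h00
    exact one_ne_zero h00

end Root5

variable [Fintype F] {R : Root5 F} {M : Subgroup (GL (Fin 5) F)}

/-- The two facts about the centraliser of `J` needed for the final step. -/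
structure CentJFacts (M : Subgroup (GL (Fin 5) F)) : Prop where
  invol : ∀ g ∈ M, Commute g gJ → g * g = 1 → g = 1 ∨ g = gJ
  odd : ∀ N : Subgroup (GL (Fin 5) F), N ≤ M ⊓ CJ F →
    (∀ g ∈ M, g ∈ CJ F → ∀ n ∈ N, g * n * g⁻¹ ∈ N) → Odd (Nat.card N) →
    ∀ g ∈ N, ∃ c : F, (g : Matrix (Fin 5) (Fin 5) F) = c • 1

namespace Hyp

variable (H : Hyp R M)
include H

/-- An overgroup of the standard generators without transvections normalises `5^{1+2}`. -/
theorem le_normalizer_of (hc : CentJFacts M) :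
    M ≤ Subgroup.normalizer (R.Rs : Set (GL (Fin 5) F)) := by
  classical
  haveI : Finite (GL (Fin 5) F) := inferInstance
  have hne : (gJ : GL (Fin 5) F) ≠ 1 := by
    intro h
    have := congrArg (fun x : GL (Fin 5) F => (x : Matrix (Fin 5) (Fin 5) F) 1 1) h
    simp [val_gJ] at this
    exact absurd this (by decide)
  set j : M := ⟨gJ, H.hJ⟩ with hj
  have hord : orderOf j = 2 := by
    haveI : Fact (Nat.Prime 2) := ⟨Nat.prime_two⟩
    refine orderOf_eq_prime ?_ ?_
    · exact Subtype.ext (by simp [hj, pow_two, gJ_sq])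
    · exact fun h => hne (congrArg Subtype.val h)
  have hiso : Cfsg.Agent.Invol.IsIsolatedInv j := by
    refine ⟨hord, fun g hg => ?_⟩
    have hsq : (g * j * g⁻¹) * (g * j * g⁻¹) = 1 := by
      rw [show (g * j * g⁻¹) * (g * j * g⁻¹) = g * (j * j) * g⁻¹ by group,
        show j * j = 1 from Subtype.ext gJ_sq, mul_one, mul_inv_cancel]
    rcases hc.invol _ (g * j * g⁻¹).2 (congrArg Subtype.val hg.eq) (congrArg Subtype.val hsq) with h | h
    · exfalso
      have h' : g * j * g⁻¹ = 1 := Subtype.ext h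
      exact hne (congrArg Subtype.val (show j = 1 by simpa using h'))
    · exact Subtype.ext h
  set O : Subgroup (GL (Fin 5) F) := (pPrimeCore 2 M).map M.subtype with hO
  have hOM : O ≤ M := Subgroup.map_subtype_le _
  have hOodd : Odd (Nat.card O) := by
    rw [hO, Subgroup.card_map_of_injective M.subtype_injective]
    exact Nat.coprime_two_right.1 Cores.pPrimeCore_coprime
  have hOn : ∀ g ∈ M, ∀ o ∈ O, g * o * g⁻¹ ∈ O := by
    rintro g hg _ ⟨o, ho, rfl⟩
    exact ⟨⟨g, hg⟩ * o * ⟨g, hg⟩⁻¹, Subgroup.Normal.conj_mem inferInstance o ho _, rfl⟩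
  have hcomm : ∀ g ∈ M, gJ * g * gJ⁻¹ * g⁻¹ ∈ O := fun g hg =>
    ⟨⁅j, (⟨g, hg⟩ : M)⁆, Cfsg.Agent.Invol.zStar_theorem M j hiso _, rfl⟩
  have hXO : R.gX ∈ O := by
    have h := hcomm _ H.hX
    rw [R.gX_eq, R.gJ_comm_el] at h
    convert mul_mem h h using 1
    rw [R.el_mul, R.gX_eq]; rfl
  have hAO : gA ∈ O := by
    have h := hcomm _ H.hA
    rw [R.gA_eq, R.gJ_comm_el] at h
    convert mul_mem h h using 1
    rw [R.el_mul, R.gA_eq]; rfl
  have hscalar : ∀ o ∈ O, Commute o gJ → ∃ k, o = R.el k 0 0 := by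
    intro o ho hoJ
    obtain ⟨c, hc'⟩ := hc.odd (O ⊓ CJ F) (inf_le_inf_right _ hOM)
      (fun g hg hgJ n hn => ⟨hOn g hg n hn.1, (CJ F).mul_mem ((CJ F).mul_mem hgJ hn.2) ((CJ F).inv_mem hgJ)⟩)
      (hOodd.of_dvd_nat (Subgroup.card_dvd_of_le inf_le_left)) o ⟨ho, mem_CJ.2 hoJ⟩
    exact R.scalar_eq_el (H.le (hOM ho)) hc'
  let φ : O →* O := MonoidHom.mk' (fun o => (⟨(gJ : GL (Fin 5) F) * (o : GL (Fin 5) F) * gJ⁻¹, hOn gJ H.hJ o o.2⟩ : O))
    fun a b => Subtype.ext (by simp only [Subgroup.coe_mul]; group)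
  have hφ : ∀ o : O, (φ o : GL (Fin 5) F) = gJ * (o : GL (Fin 5) F) * gJ⁻¹ := fun o => rfl
  have hφ2 : ∀ o, φ (φ o) = o := fun o => Subtype.ext (by
    rw [hφ, hφ, inv_eq_of_mul_eq_one_right gJ_sq,
      show (gJ : GL (Fin 5) F) * (gJ * (o : GL (Fin 5) F) * gJ) * gJ =
        (gJ * gJ) * (o : GL (Fin 5) F) * (gJ * gJ) by simp only [mul_assoc],
      gJ_sq, one_mul, mul_one])
  set C : Subgroup O := φ.eqLocus (MonoidHom.id O) with hC
  have hCel : ∀ o ∈ C, ∃ k, (o : GL (Fin 5) F) = R.el k 0 0 := fun o ho => by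
    refine hscalar o o.2 ?_
    have h : (gJ : GL (Fin 5) F) * (o : GL (Fin 5) F) * gJ⁻¹ = (o : GL (Fin 5) F) := by
      rw [← hφ o, show φ o = o from ho]
    exact (mul_inv_eq_iff_eq_mul.1 h).symm
  have hcent : ∀ (k : Fin 5) (g : GL (Fin 5) F), g * R.el k 0 0 = R.el k 0 0 * g := fun k g =>
    Units.ext (by simp [R.val_el_central])
  haveI hCn : C.Normal := ⟨fun o ho g => by
    obtain ⟨k, hk⟩ := hCel o ho
    have : g * o * g⁻¹ = o := Subtype.ext (by
      rw [Subgroup.coe_mul, Subgroup.coe_mul, hk, hcent, Subgroup.coe_inv, mul_inv_cancel_right])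
    rwa [this]⟩
  let ψ : O ⧸ C →* O ⧸ C := QuotientGroup.map C C φ fun o ho => by
    show φ (φ o) = φ o
    rw [show φ o = o from ho]; exact ho
  have hfix : MonoidHom.FixedPointFree ψ := by
    intro x hx
    obtain ⟨o, rfl⟩ := QuotientGroup.mk_surjective x
    refine (QuotientGroup.eq_one_iff o).2 ?_
    have hc1 : o⁻¹ * φ o ∈ C := QuotientGroup.eq.1 (hx.symm)
    have hc2 : φ (o⁻¹ * φ o) = o⁻¹ * φ o := hc1
    rw [map_mul, map_inv, hφ2] at hc2
    have hsq : (o⁻¹ * φ o) ^ 2 = 1 := by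
      rw [pow_two]; nth_rewrite 1 [← hc2]; group
    have hcop : (Nat.card O).Coprime 2 := Nat.coprime_two_right.2 hOodd
    have h1 : o⁻¹ * φ o = 1 := by
      have h3 := Nat.dvd_gcd (orderOf_dvd_natCard (o⁻¹ * φ o)) (orderOf_dvd_of_pow_eq_one hsq)
      rwa [hcop.gcd_eq_one, Nat.dvd_one, orderOf_eq_one_iff] at h3
    exact (inv_mul_eq_one.1 h1).symm
  have hinv : Function.Involutive ψ := by
    intro x
    obtain ⟨o, rfl⟩ := QuotientGroup.mk_surjective x
    exact congrArg _ (hφ2 o)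
  have hab : ∀ o ∈ O, ∀ g ∈ O, ∃ k, o * g = R.el k 0 0 * (g * o) := by
    intro o ho g hg
    have h := (hfix.commute_all_of_involutive hinv ((⟨g, hg⟩ : O) : O ⧸ C) ((⟨o, ho⟩ : O) : O ⧸ C)).eq
    rw [← QuotientGroup.mk_mul, ← QuotientGroup.mk_mul, QuotientGroup.eq] at h
    obtain ⟨k, hk⟩ := hCel _ h
    refine ⟨k, ?_⟩
    rw [Subgroup.coe_mul, Subgroup.coe_inv, inv_mul_eq_iff_eq_mul] at hk
    simp only [Subgroup.coe_mul] at hk
    rw [hk, hcent]
  have hORs : O = R.Rs := by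
    refine le_antisymm (fun o ho => ?_) (R.Rs_le hXO hAO)
    obtain ⟨k, hk⟩ := hab o ho _ hXO
    obtain ⟨l, hl⟩ := hab o ho _ hAO
    exact R.mem_Rs_of_comm (H.le (hOM ho)) hk hl
  intro g hg
  rw [Subgroup.mem_normalizer_iff]
  intro x
  rw [← hORs]
  refine ⟨hOn g hg x, fun h => ?_⟩
  have h' := hOn g⁻¹ (inv_mem hg) _ h
  rwa [show g⁻¹ * (g * x * g⁻¹) * g⁻¹⁻¹ = x by group] at h'

end Hyp

theorem normalizer_map {G G' : Type*} [Group G] [Group G'] (e : G ≃* G') (K : Subgroup G) :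
    Subgroup.normalizer ((K.map e.toMonoidHom : Subgroup G') : Set G') =
      (Subgroup.normalizer (K : Set G)).map e.toMonoidHom := by
  have hm : ∀ (L : Subgroup G) (x : G), e x ∈ L.map e.toMonoidHom ↔ x ∈ L := fun L x => by
    rw [Subgroup.mem_map_equiv, e.symm_apply_apply]
  ext x
  obtain ⟨y, rfl⟩ := e.surjective x
  rw [hm, Subgroup.mem_normalizer_iff, Subgroup.mem_normalizer_iff]
  constructor
  · intro h z
    have h' := h (e z)
    rwa [← map_inv, ← map_mul, ← map_mul, hm, hm] at h'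
  · intro h w
    obtain ⟨z, rfl⟩ := e.surjective w
    rw [← map_inv, ← map_mul, ← map_mul, hm, hm]
    exact h z

theorem isMaximalIn_map {G G' : Type*} [Group G] [Group G'] (e : G ≃* G') {K L : Subgroup G}
    (h : IsMaximalIn K L) : IsMaximalIn (K.map e.toMonoidHom) (L.map e.toMonoidHom) := by
  refine ⟨(Subgroup.map_lt_map_iff_of_injective e.injective).2 h.1, fun N hL hK => ?_⟩
  have hN : (N.comap e.toMonoidHom).map e.toMonoidHom = N :=
    Subgroup.map_comap_eq_self_of_surjective e.surjective N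
  rcases h.2 (N.comap e.toMonoidHom) (Subgroup.map_le_iff_le_comap.1 hL)
      (by rw [← Subgroup.map_le_map_iff_of_injective (f := e.toMonoidHom) e.injective, hN]; exact hK) with h' | h'
  · exact Or.inl (by rw [← hN, h'])
  · exact Or.inr (by rw [← hN, h'])

theorem det_ne_zero (P : GL (Fin 5) F) : (P : Matrix (Fin 5) (Fin 5) F).det ≠ 0 :=
  ((Matrix.isUnit_iff_isUnit_det _).1 P.isUnit).ne_zero

theorem specialLinear_map_conj (P : GL (Fin 5) F) :
    (specialLinear (Fin 5) F).map (MulAut.conj P).toMonoidHom = specialLinear (Fin 5) F := by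
  refine le_antisymm ?_ fun g hg => ?_
  · rintro _ ⟨g, hg, rfl⟩
    rw [GeoClasses.mem_specialLinear_iff]
    rw [SetLike.mem_coe, GeoClasses.mem_specialLinear_iff] at hg
    simp [MulAut.conj_apply, hg, det_ne_zero]
  · refine ⟨P⁻¹ * g * P, ?_, by simp [MulAut.conj_apply]; group⟩
    rw [SetLike.mem_coe, GeoClasses.mem_specialLinear_iff] at *
    simp [hg, det_ne_zero]

/-- The standard normaliser is maximal, given the facts on the centraliser of `J`. -/
theorem standard_maximal (R : Root5 F) (hp : (Fintype.card F).Prime)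
    (hc : ∀ M : Subgroup (GL (Fin 5) F), Hyp R M → CentJFacts M) :
    IsMaximalIn (specialLinear (Fin 5) F)
      (Subgroup.normalizer (R.Rs : Set (GL (Fin 5) F)) ⊓ specialLinear (Fin 5) F) := by
  refine ⟨lt_of_le_not_ge inf_le_right fun hle => ?_, fun M hle hM => ?_⟩
  · obtain ⟨t, ht, htn⟩ := R.transvection_not_mem
    exact htn (hle ht).1
  · have mem : ∀ {g : GL (Fin 5) F}, g ∈ Subgroup.normalizer (R.Rs : Set (GL (Fin 5) F)) →
        (g : Matrix (Fin 5) (Fin 5) F).det = 1 → g ∈ M :=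
      fun hg hd => hle ⟨hg, GeoClasses.mem_specialLinear_iff.2 hd⟩
    have hX := mem R.gX_normalizer R.det_gX
    have hA := mem R.gA_normalizer det_gA
    by_cases hnt : NT M
    · have H : Hyp R M := ⟨hp, hM, hX, hA, mem R.gJ_normalizer det_gJ, mem R.gT_normalizer R.det_gT,
        mem R.gS_normalizer det_gS, mem R.gU_normalizer R.det_gU, hnt⟩
      exact Or.inl (le_antisymm (le_inf (H.le_normalizer_of (hc M H)) hM) hle)
    · exact Or.inr (le_antisymm hM (sl_le_of_not_nt R hp hX hA hM hnt))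

/-- Clause 5 of the `SL₅` list, given the facts on the centraliser of `J`. -/
theorem symplecticType_five_maximal_of {p : ℕ} (hp : p.Prime) (hcard : Fintype.card F = p)
    (hp5 : p % 5 = 1) {R' : Subgroup (GL (Fin 5) F)} (hR : IsLinearSymplecticTypeData 5 R')
    (hc : ∀ (R : Root5 F) (M : Subgroup (GL (Fin 5) F)), Hyp R M → CentJFacts M) :
    IsMaximalIn (specialLinear (Fin 5) F) (subgroupNormalizer R' ⊓ specialLinear (Fin 5) F) := by
  obtain ⟨S, P, hSP⟩ := exists_std hR hp hcard hp5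
  have h := isMaximalIn_map (MulAut.conj P) (standard_maximal S (hcard ▸ hp) (hc S))
  rw [Subgroup.map_inf_eq _ _ _ (MulAut.conj P).injective, specialLinear_map_conj, ← normalizer_map,
    hSP] at h
  exact h

end Cfsg.Agent.MaxSub.CSixFive
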