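import Cfsg.Agent.MaxSub.CSixFive.Normal

/-!
The eigenspace blocks of the centralisers of `J` and of `T`.
-/

set_option autoImplicit false
set_option linter.unusedSectionVars false
set_option linter.unusedSimpArgs false

namespace Cfsg.Agent.MaxSub.CSixFive

open Matrix
open scoped MatrixGroups Fin.CommRing Fin.NatCast

variable {F : Type*} [Field F]

/-- The centraliser of `J`. -/
def CJ (F : Type*) [Field F] : Subgroup (GL (Fin 5) F) := Subgroup.centralizer {gJ}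

theorem mem_CJ {g : GL (Fin 5) F} : g ∈ CJ F ↔ Commute g gJ := by
  rw [CJ, Subgroup.mem_centralizer_singleton_iff]
  exact ⟨fun h => h, fun h => h⟩

theorem CJ_eqs {g : GL (Fin 5) F} (hg : g ∈ CJ F) :
    let G := (g : Matrix (Fin 5) (Fin 5) F)
    G 4 0 = G 1 0 ∧ G 3 0 = G 2 0 ∧ G 0 4 = G 0 1 ∧ G 0 3 = G 0 2 ∧ G 4 4 = G 1 1 ∧ G 4 1 = G 1 4 ∧
      G 4 2 = G 1 3 ∧ G 4 3 = G 1 2 ∧ G 3 1 = G 2 4 ∧ G 3 4 = G 2 1 ∧ G 3 2 = G 2 3 ∧
      G 3 3 = G 2 2 := by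
  have h := commute_gJ_iff.1 (mem_CJ.1 hg)
  exact ⟨h 1 0, h 2 0, h 0 1, h 0 2, h 1 1, h 1 4, h 1 3, h 1 2, h 2 4, h 2 1, h 2 3, h 2 2⟩

/-- The matrix on the `-1`-eigenspace, basis `e₁ - e₄, e₂ - e₃`. -/
def matM (g : Matrix (Fin 5) (Fin 5) F) : Matrix (Fin 2) (Fin 2) F :=
  !![g 1 1 - g 1 4, g 1 2 - g 1 3; g 2 1 - g 2 4, g 2 2 - g 2 3]

/-- The matrix on the `+1`-eigenspace, basis `e₀, e₁ + e₄, e₂ + e₃`. -/
def matP (g : Matrix (Fin 5) (Fin 5) F) : Matrix (Fin 3) (Fin 3) F :=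
  !![g 0 0, g 0 1 + g 0 4, g 0 2 + g 0 3; g 1 0, g 1 1 + g 1 4, g 1 2 + g 1 3;
    g 2 0, g 2 1 + g 2 4, g 2 2 + g 2 3]

theorem matM_one : matM (1 : Matrix (Fin 5) (Fin 5) F) = 1 := by
  ext i j; fin_cases i <;> fin_cases j <;> simp [matM, Matrix.one_apply]

theorem matP_one : matP (1 : Matrix (Fin 5) (Fin 5) F) = 1 := by
  ext i j; fin_cases i <;> fin_cases j <;> simp [matP, Matrix.one_apply]

theorem matM_mul (g : GL (Fin 5) F) {h : GL (Fin 5) F} (hh : h ∈ CJ F) :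
    matM ((g * h : GL (Fin 5) F) : Matrix (Fin 5) (Fin 5) F) =
      matM (g : Matrix (Fin 5) (Fin 5) F) * matM (h : Matrix (Fin 5) (Fin 5) F) := by
  obtain ⟨a1, a2, a3, a4, a5, a6, a7, a8, a9, a10, a11, a12⟩ := CJ_eqs hh
  simp only [Units.val_mul]
  ext i j
  fin_cases i <;> fin_cases j <;>
    simp [matM, Matrix.mul_apply, Fin.sum_univ_five, a1, a2, a3, a4, a5, a6, a7, a8, a9, a10, a11,
      a12] <;> ring

theorem matP_mul (g : GL (Fin 5) F) {h : GL (Fin 5) F} (hh : h ∈ CJ F) :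
    matP ((g * h : GL (Fin 5) F) : Matrix (Fin 5) (Fin 5) F) =
      matP (g : Matrix (Fin 5) (Fin 5) F) * matP (h : Matrix (Fin 5) (Fin 5) F) := by
  obtain ⟨a1, a2, a3, a4, a5, a6, a7, a8, a9, a10, a11, a12⟩ := CJ_eqs hh
  simp only [Units.val_mul]
  ext i j
  fin_cases i <;> fin_cases j <;>
    simp [matP, Matrix.mul_apply, Fin.sum_univ_five, Fin.sum_univ_three, a1, a2, a3, a4, a5, a6,
      a7, a8, a9, a10, a11, a12] <;> ring

/-- The representation on the `-1`-eigenspace. -/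
def rM : CJ F →* GL (Fin 2) F :=
  MonoidHom.toHomUnits (M := Matrix (Fin 2) (Fin 2) F)
    { toFun := fun g => matM ((g : GL (Fin 5) F) : Matrix (Fin 5) (Fin 5) F)
      map_one' := matM_one
      map_mul' := fun g h => by rw [Subgroup.coe_mul]; exact matM_mul _ h.2 }

/-- The representation on the `+1`-eigenspace. -/
def rP : CJ F →* GL (Fin 3) F :=
  MonoidHom.toHomUnits (M := Matrix (Fin 3) (Fin 3) F)
    { toFun := fun g => matP ((g : GL (Fin 5) F) : Matrix (Fin 5) (Fin 5) F)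
      map_one' := matP_one
      map_mul' := fun g h => by rw [Subgroup.coe_mul]; exact matP_mul _ h.2 }

theorem val_rM (g : CJ F) :
    (rM g : Matrix (Fin 2) (Fin 2) F) = matM ((g : GL (Fin 5) F) : Matrix (Fin 5) (Fin 5) F) := rfl

theorem val_rP (g : CJ F) :
    (rP g : Matrix (Fin 3) (Fin 3) F) = matP ((g : GL (Fin 5) F) : Matrix (Fin 5) (Fin 5) F) := rfl

theorem eq_of_blocks (h2 : (2 : F) ≠ 0) {g h : CJ F} (hM : rM g = rM h) (hP : rP g = rP h) :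
    g = h := by
  obtain ⟨a1, a2, a3, a4, a5, a6, a7, a8, a9, a10, a11, a12⟩ := CJ_eqs g.2
  obtain ⟨b1, b2, b3, b4, b5, b6, b7, b8, b9, b10, b11, b12⟩ := CJ_eqs h.2
  have eM := congrArg (fun m : GL (Fin 2) F => (m : Matrix (Fin 2) (Fin 2) F)) hM
  have eP := congrArg (fun m : GL (Fin 3) F => (m : Matrix (Fin 3) (Fin 3) F)) hP
  simp only [val_rM] at eM
  simp only [val_rP] at eP
  set G := ((g : GL (Fin 5) F) : Matrix (Fin 5) (Fin 5) F)
  set H := ((h : GL (Fin 5) F) : Matrix (Fin 5) (Fin 5) F)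
  have m : ∀ i j, matM G i j = matM H i j := fun i j => by rw [eM]
  have q : ∀ i j, matP G i j = matP H i j := fun i j => by rw [eP]
  have cancel : ∀ {x y x' y' : F}, x - y = x' - y' → x + y = x' + y' → x = x' ∧ y = y' :=
    fun {x y x' y'} e1 e2 => ⟨mul_left_cancel₀ h2 (by linear_combination e1 + e2),
      mul_left_cancel₀ h2 (by linear_combination e2 - e1)⟩
  obtain ⟨c1, c2⟩ := cancel (by simpa [matM] using m 0 0) (by simpa [matP] using q 1 1)
  obtain ⟨c3, c4⟩ := cancel (by simpa [matM] using m 0 1) (by simpa [matP] using q 1 2)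
  obtain ⟨c5, c6⟩ := cancel (by simpa [matM] using m 1 0) (by simpa [matP] using q 2 1)
  obtain ⟨c7, c8⟩ := cancel (by simpa [matM] using m 1 1) (by simpa [matP] using q 2 2)
  have d0 : G 0 0 = H 0 0 := by simpa [matP] using q 0 0
  have d1 : G 0 1 = H 0 1 := mul_left_cancel₀ h2 (by
    have := q 0 1; simp [matP] at this; linear_combination this - a3 + b3)
  have d2 : G 0 2 = H 0 2 := mul_left_cancel₀ h2 (by
    have := q 0 2; simp [matP] at this; linear_combination this - a4 + b4)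
  have d3 : G 1 0 = H 1 0 := by simpa [matP] using q 1 0
  have d4 : G 2 0 = H 2 0 := by simpa [matP] using q 2 0
  refine Subtype.ext (Units.ext (Matrix.ext fun i j => ?_))
  change G i j = H i j
  fin_cases i <;> fin_cases j <;>
    simp [a1, a2, a3, a4, a5, a6, a7, a8, a9, a10, a11, a12, b1, b2, b3, b4, b5, b6, b7, b8, b9,
      b10, b11, b12, c1, c2, c3, c4, c5, c6, c7, c8, d0, d1, d2, d3, d4]

theorem gJ_mem_CJ : (gJ : GL (Fin 5) F) ∈ CJ F := mem_CJ.2 (Commute.refl _)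

theorem gS_mul_apply (g : Matrix (Fin 5) (Fin 5) F) (i j : Fin 5) :
    (((gS : GL (Fin 5) F) : Matrix (Fin 5) (Fin 5) F) * g) i j = -g (3 * i) j := by
  rw [Matrix.mul_apply, Finset.sum_eq_single (3 * i)]
  · rw [val_gS, if_pos ((by decide : ∀ i : Fin 5, i = 2 * (3 * i)) i), neg_one_mul]
  · intro b _ hb
    rw [val_gS, if_neg (fun h => hb ((by decide : ∀ i b : Fin 5, i = 2 * b → b = 3 * i) i b h)),
      zero_mul]
  · intro h; exact absurd (Finset.mem_univ _) h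

theorem mul_gS_apply (g : Matrix (Fin 5) (Fin 5) F) (i j : Fin 5) :
    (g * ((gS : GL (Fin 5) F) : Matrix (Fin 5) (Fin 5) F)) i j = -g i (2 * j) := by
  rw [Matrix.mul_apply, Finset.sum_eq_single (2 * j)]
  · rw [val_gS, if_pos rfl, mul_neg_one]
  · intro b _ hb; rw [val_gS, if_neg hb, mul_zero]
  · intro h; exact absurd (Finset.mem_univ _) h

theorem gS_conj_apply (g : GL (Fin 5) F) (i j : Fin 5) :
    ((gS * g * gS⁻¹ : GL (Fin 5) F) : Matrix (Fin 5) (Fin 5) F) i j =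
      (g : Matrix (Fin 5) (Fin 5) F) (3 * i) (3 * j) := by
  have h := congrArg (fun x : GL (Fin 5) F => (x : Matrix (Fin 5) (Fin 5) F) i (3 * j))
    (inv_mul_cancel_right (gS * g : GL (Fin 5) F) gS)
  simp only [Units.val_mul, mul_gS_apply, gS_mul_apply] at h
  rw [show (2 : Fin 5) * (3 * j) = j from (by decide : ∀ j : Fin 5, 2 * (3 * j) = j) j] at h
  simpa only [Units.val_mul] using neg_inj.1 h

theorem commute_gS_gJ : Commute (gS : GL (Fin 5) F) gJ := by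
  refine commute_gJ_iff.2 fun i j => ?_
  simp only [val_gS]
  exact if_congr ⟨fun h => by linear_combination -h, fun h => by linear_combination -h⟩ rfl rfl

theorem gS_mem_CJ : (gS : GL (Fin 5) F) ∈ CJ F := mem_CJ.2 commute_gS_gJ

theorem neg_one_five : (-1 : Fin 5) = 4 := by decide
theorem neg_two_five : (-2 : Fin 5) = 3 := by decide
theorem neg_three_five : (-3 : Fin 5) = 2 := by decide
theorem neg_four_five : (-4 : Fin 5) = 1 := by decide

theorem rM_gJ : rM (⟨gJ, gJ_mem_CJ⟩ : CJ F) = -1 := by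
  refine Units.ext ?_
  rw [val_rM]
  ext i j
  fin_cases i <;> fin_cases j <;> simp [matM, val_gJ, neg_one_five, neg_two_five, neg_three_five, neg_four_five]

theorem rP_gJ : rP (⟨gJ, gJ_mem_CJ⟩ : CJ F) = 1 := by
  refine Units.ext ?_
  rw [val_rP]
  ext i j
  fin_cases i <;> fin_cases j <;> simp [matP, val_gJ, neg_one_five, neg_two_five, neg_three_five, neg_four_five]

theorem rM_gS : (rM (⟨gS, gS_mem_CJ⟩ : CJ F) : Matrix (Fin 2) (Fin 2) F) = !![0, 1; -1, 0] := by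
  rw [val_rM]
  ext i j
  fin_cases i <;> fin_cases j <;> simp [matM, val_gS]

namespace Root5

variable (R : Root5 F)

theorem gT_mem_CJ : R.gT ∈ CJ F := mem_CJ.2 R.commute_gT_gJ
theorem gU_mem_CJ : R.gU ∈ CJ F := mem_CJ.2 R.commute_gU_gJ

/-- `T` in the centraliser of `J`. -/
def tJ : CJ F := ⟨R.gT, R.gT_mem_CJ⟩
/-- `U` in the centraliser of `J`. -/
def uJ : CJ F := ⟨R.gU, R.gU_mem_CJ⟩

theorem val_gT (i j : Fin 5) :
    (R.gT : Matrix (Fin 5) (Fin 5) F) i j = if i = j then R.e (i * i) else 0 := by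
  rw [gT, val_dG, diagonal_apply]

theorem rM_tJ : (rM R.tJ : Matrix (Fin 2) (Fin 2) F) = !![R.e 1, 0; 0, R.e 4] := by
  rw [val_rM]
  ext i j
  fin_cases i <;> fin_cases j <;> simp [matM, tJ, val_gT]

theorem rP_tJ : (rP R.tJ : Matrix (Fin 3) (Fin 3) F) = diagonal ![1, R.e 1, R.e 4] := by
  rw [val_rP]
  ext i j
  fin_cases i <;> fin_cases j <;> simp [matP, tJ, val_gT, e_zero]

/-- The centraliser of `T`. -/
def CT : Subgroup (GL (Fin 5) F) := Subgroup.centralizer {R.gT}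

theorem mem_CT {g : GL (Fin 5) F} : g ∈ R.CT ↔ Commute g R.gT := by
  rw [CT, Subgroup.mem_centralizer_singleton_iff]
  exact ⟨fun h => h, fun h => h⟩

theorem CT_eqs {g : GL (Fin 5) F} (hg : g ∈ R.CT) :
    let G := (g : Matrix (Fin 5) (Fin 5) F)
    G 0 1 = 0 ∧ G 0 2 = 0 ∧ G 0 3 = 0 ∧ G 0 4 = 0 ∧ G 1 0 = 0 ∧ G 2 0 = 0 ∧ G 3 0 = 0 ∧ G 4 0 = 0 ∧
      G 1 2 = 0 ∧ G 1 3 = 0 ∧ G 4 2 = 0 ∧ G 4 3 = 0 ∧ G 2 1 = 0 ∧ G 2 4 = 0 ∧ G 3 1 = 0 ∧
      G 3 4 = 0 := by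
  have h := R.commute_dG_iff.1 (R.mem_CT.1 hg)
  exact ⟨h 0 1 (by decide), h 0 2 (by decide), h 0 3 (by decide), h 0 4 (by decide),
    h 1 0 (by decide), h 2 0 (by decide), h 3 0 (by decide), h 4 0 (by decide), h 1 2 (by decide),
    h 1 3 (by decide), h 4 2 (by decide), h 4 3 (by decide), h 2 1 (by decide), h 2 4 (by decide),
    h 3 1 (by decide), h 3 4 (by decide)⟩

/-- The block on `e₁, e₄`. -/
def mat1 (g : Matrix (Fin 5) (Fin 5) F) : Matrix (Fin 2) (Fin 2) F :=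
  !![g 1 1, g 1 4; g 4 1, g 4 4]

/-- The block on `e₂, e₃`. -/
def mat4 (g : Matrix (Fin 5) (Fin 5) F) : Matrix (Fin 2) (Fin 2) F :=
  !![g 2 2, g 2 3; g 3 2, g 3 3]

theorem mat1_mul (g : GL (Fin 5) F) {h : GL (Fin 5) F} (hh : h ∈ R.CT) :
    mat1 ((g * h : GL (Fin 5) F) : Matrix (Fin 5) (Fin 5) F) =
      mat1 (g : Matrix (Fin 5) (Fin 5) F) * mat1 (h : Matrix (Fin 5) (Fin 5) F) := by
  obtain ⟨a1, a2, a3, a4, a5, a6, a7, a8, a9, a10, a11, a12, a13, a14, a15, a16⟩ := R.CT_eqs hh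
  simp only [Units.val_mul]
  ext i j
  fin_cases i <;> fin_cases j <;>
    simp [mat1, Matrix.mul_apply, Fin.sum_univ_five, a1, a2, a3, a4, a5, a6, a7, a8, a9, a10, a11,
      a12, a13, a14, a15, a16]

theorem mat4_mul (g : GL (Fin 5) F) {h : GL (Fin 5) F} (hh : h ∈ R.CT) :
    mat4 ((g * h : GL (Fin 5) F) : Matrix (Fin 5) (Fin 5) F) =
      mat4 (g : Matrix (Fin 5) (Fin 5) F) * mat4 (h : Matrix (Fin 5) (Fin 5) F) := by
  obtain ⟨a1, a2, a3, a4, a5, a6, a7, a8, a9, a10, a11, a12, a13, a14, a15, a16⟩ := R.CT_eqs hh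
  simp only [Units.val_mul]
  ext i j
  fin_cases i <;> fin_cases j <;>
    simp [mat4, Matrix.mul_apply, Fin.sum_univ_five, a1, a2, a3, a4, a5, a6, a7, a8, a9, a10, a11,
      a12, a13, a14, a15, a16]

/-- The representation on `e₁, e₄`. -/
def r1 : R.CT →* GL (Fin 2) F :=
  MonoidHom.toHomUnits (M := Matrix (Fin 2) (Fin 2) F)
    { toFun := fun g => mat1 ((g : GL (Fin 5) F) : Matrix (Fin 5) (Fin 5) F)
      map_one' := by ext i j; fin_cases i <;> fin_cases j <;> simp [mat1, Matrix.one_apply]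
      map_mul' := fun g h => by rw [Subgroup.coe_mul]; exact R.mat1_mul _ h.2 }

/-- The representation on `e₂, e₃`. -/
def r4 : R.CT →* GL (Fin 2) F :=
  MonoidHom.toHomUnits (M := Matrix (Fin 2) (Fin 2) F)
    { toFun := fun g => mat4 ((g : GL (Fin 5) F) : Matrix (Fin 5) (Fin 5) F)
      map_one' := by ext i j; fin_cases i <;> fin_cases j <;> simp [mat4, Matrix.one_apply]
      map_mul' := fun g h => by rw [Subgroup.coe_mul]; exact R.mat4_mul _ h.2 }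

theorem val_r1 (g : R.CT) :
    (R.r1 g : Matrix (Fin 2) (Fin 2) F) = mat1 ((g : GL (Fin 5) F) : Matrix (Fin 5) (Fin 5) F) := rfl

theorem val_r4 (g : R.CT) :
    (R.r4 g : Matrix (Fin 2) (Fin 2) F) = mat4 ((g : GL (Fin 5) F) : Matrix (Fin 5) (Fin 5) F) := rfl

theorem CT_zero_zero_mul (g : GL (Fin 5) F) {h : GL (Fin 5) F} (hh : h ∈ R.CT) :
    ((g * h : GL (Fin 5) F) : Matrix (Fin 5) (Fin 5) F) 0 0 =
      (g : Matrix (Fin 5) (Fin 5) F) 0 0 * (h : Matrix (Fin 5) (Fin 5) F) 0 0 := by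
  obtain ⟨-, -, -, -, a5, a6, a7, a8, -⟩ := R.CT_eqs hh
  simp [Units.val_mul, Matrix.mul_apply, Fin.sum_univ_five, a5, a6, a7, a8]

/-- The entry at `e₀`. -/
def r0 : R.CT →* F where
  toFun g := ((g : GL (Fin 5) F) : Matrix (Fin 5) (Fin 5) F) 0 0
  map_one' := by simp
  map_mul' g h := by rw [Subgroup.coe_mul]; exact R.CT_zero_zero_mul _ h.2

theorem eq_of_blocks_T {g h : R.CT} (h1 : R.r1 g = R.r1 h) (h4 : R.r4 g = R.r4 h)
    (h0 : R.r0 g = R.r0 h) : g = h := by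
  obtain ⟨a1, a2, a3, a4, a5, a6, a7, a8, a9, a10, a11, a12, a13, a14, a15, a16⟩ := R.CT_eqs g.2
  obtain ⟨b1, b2, b3, b4, b5, b6, b7, b8, b9, b10, b11, b12, b13, b14, b15, b16⟩ := R.CT_eqs h.2
  have e1 := congrArg (fun m : GL (Fin 2) F => (m : Matrix (Fin 2) (Fin 2) F)) h1
  have e4 := congrArg (fun m : GL (Fin 2) F => (m : Matrix (Fin 2) (Fin 2) F)) h4
  simp only [val_r1] at e1
  simp only [val_r4] at e4
  have m1 : ∀ i j, mat1 ((g : GL (Fin 5) F) : Matrix (Fin 5) (Fin 5) F) i j =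
      mat1 ((h : GL (Fin 5) F) : Matrix (Fin 5) (Fin 5) F) i j := fun i j => by rw [e1]
  have m4 : ∀ i j, mat4 ((g : GL (Fin 5) F) : Matrix (Fin 5) (Fin 5) F) i j =
      mat4 ((h : GL (Fin 5) F) : Matrix (Fin 5) (Fin 5) F) i j := fun i j => by rw [e4]
  have h0' : ((g : GL (Fin 5) F) : Matrix (Fin 5) (Fin 5) F) 0 0 =
      ((h : GL (Fin 5) F) : Matrix (Fin 5) (Fin 5) F) 0 0 := h0
  refine Subtype.ext (Units.ext (Matrix.ext fun i j => ?_))
  have := m1 0 0; have := m1 0 1; have := m1 1 0; have := m1 1 1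
  have := m4 0 0; have := m4 0 1; have := m4 1 0; have := m4 1 1
  fin_cases i <;> fin_cases j <;> simp_all [mat1, mat4]

theorem gT_mem_CT : R.gT ∈ R.CT := R.mem_CT.2 (Commute.refl _)
theorem gJ_mem_CT : gJ ∈ R.CT := R.mem_CT.2 R.commute_gT_gJ.symm
theorem gX_mem_CT : R.gX ∈ R.CT := R.mem_CT.2 R.commute_gT_gX.symm

/-- `J` in the centraliser of `T`. -/
def jT : R.CT := ⟨gJ, R.gJ_mem_CT⟩
/-- `X` in the centraliser of `T`. -/
def xT : R.CT := ⟨R.gX, R.gX_mem_CT⟩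

theorem val_gX (i j : Fin 5) :
    (R.gX : Matrix (Fin 5) (Fin 5) F) i j = if i = j then R.e i else 0 := by
  rw [gX, val_dG, diagonal_apply]

theorem r1_xT : (R.r1 R.xT : Matrix (Fin 2) (Fin 2) F) = !![R.e 1, 0; 0, R.e 4] := by
  rw [val_r1]
  ext i j
  fin_cases i <;> fin_cases j <;> simp [mat1, xT, val_gX]

theorem r4_xT : (R.r4 R.xT : Matrix (Fin 2) (Fin 2) F) = !![R.e 2, 0; 0, R.e 3] := by
  rw [val_r4]
  ext i j
  fin_cases i <;> fin_cases j <;> simp [mat4, xT, val_gX]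

theorem r1_jT : (R.r1 R.jT : Matrix (Fin 2) (Fin 2) F) = !![0, 1; 1, 0] := by
  rw [val_r1]
  ext i j
  fin_cases i <;> fin_cases j <;> simp [mat1, jT, val_gJ] <;> decide

theorem r4_jT : (R.r4 R.jT : Matrix (Fin 2) (Fin 2) F) = !![0, 1; 1, 0] := by
  rw [val_r4]
  ext i j
  fin_cases i <;> fin_cases j <;> simp [mat4, jT, val_gJ] <;> decide

theorem gS_conj_gT : gS * R.gT * gS⁻¹ = R.gT ^ 4 := by
  refine Units.ext (Matrix.ext fun i j => ?_)
  rw [gS_conj_apply, R.val_gT, gT, Units.val_pow_eq_pow_val, val_dG, diagonal_pow, diagonal_apply]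
  by_cases h : i = j
  · subst h
    rw [if_pos rfl, if_pos rfl, Pi.pow_apply, R.e_mul]
    congr 1
    exact (by decide : ∀ i : Fin 5, (3 * i) * (3 * i) = ((4 : ℕ) : Fin 5) * (i * i)) i
  · rw [if_neg h, if_neg fun e => h ((by decide : ∀ i j : Fin 5, 3 * i = 3 * j → i = j) i j e)]

theorem gS_conj_mem_CT {g : GL (Fin 5) F} (hg : g ∈ R.CT) : gS * g * gS⁻¹ ∈ R.CT := by
  refine R.mem_CT.2 (R.commute_dG_iff.2 fun i j hij => ?_)
  rw [gS_conj_apply]
  refine R.commute_dG_iff.1 (R.mem_CT.1 hg) _ _ fun e => hij ?_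
  exact (by decide : ∀ i j : Fin 5, (3 * i) * (3 * i) = (3 * j) * (3 * j) → i * i = j * j) i j e

end Root5

end Cfsg.Agent.MaxSub.CSixFive
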