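import Cfsg.Agent.MaxSub.CSixFive.Kernel
import Mathlib.FieldTheory.Finite.Basic

/-!
`C_M(J)`: its only involution is `J`, and its odd normal subgroups are scalar.
-/

set_option autoImplicit false
set_option linter.unusedSectionVars false
set_option linter.unusedSimpArgs false
set_option linter.style.haveILetI false

namespace Cfsg.Agent.MaxSub.CSixFive

open Matrix Cfsg.Geo Cfsg.Agent.MaxSub
open scoped MatrixGroups Fin.CommRing Fin.NatCast Cfsg.Agent.MaxSub.Dickson

variable {F : Type*} [Field F] [Fintype F] {R : Root5 F} {M : Subgroup (GL (Fin 5) F)}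

/-- The lower unitriangular matrices. -/
def l2 (a : F) : Matrix (Fin 2) (Fin 2) F := !![1, 0; a, 1]

/-- A group with both root subgroups contains `SL₂`. -/
theorem mem_of_det_one {P : Subgroup (GL (Fin 2) F)}
    (hu : ∀ a, ∃ g ∈ P, (g : Matrix (Fin 2) (Fin 2) F) = u2 a)
    (hl : ∀ a, ∃ g ∈ P, (g : Matrix (Fin 2) (Fin 2) F) = l2 a)
    {g : GL (Fin 2) F} (hg : (g : Matrix (Fin 2) (Fin 2) F).det = 1) : g ∈ P := by
  have key : ∀ g : GL (Fin 2) F, (g : Matrix (Fin 2) (Fin 2) F).det = 1 →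
      (g : Matrix (Fin 2) (Fin 2) F) 1 0 ≠ 0 → g ∈ P := by
    intro g hg hc
    obtain ⟨x, hx, ex⟩ := hu (((g : Matrix (Fin 2) (Fin 2) F) 0 0 - 1) / (g : Matrix (Fin 2) (Fin 2) F) 1 0)
    obtain ⟨y, hy, ey⟩ := hl ((g : Matrix (Fin 2) (Fin 2) F) 1 0)
    obtain ⟨z, hz, ez⟩ := hu (((g : Matrix (Fin 2) (Fin 2) F) 1 1 - 1) / (g : Matrix (Fin 2) (Fin 2) F) 1 0)
    have : g = x * y * z := by
      refine Units.ext ?_
      rw [Units.val_mul, Units.val_mul, ex, ey, ez]
      rw [det_fin_two] at hg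
      ext i j
      fin_cases i <;> fin_cases j <;> simp [u2, l2, Matrix.mul_apply] <;> field_simp
      all_goals first | ring1 | linear_combination hg | linear_combination -hg
    rw [this]
    exact mul_mem (mul_mem hx hy) hz
  by_cases hc : (g : Matrix (Fin 2) (Fin 2) F) 1 0 = 0
  · obtain ⟨y, hy, ey⟩ := hl 1
    refine (Subgroup.mul_mem_cancel_left P hy).1 (key _ ?_ ?_)
    · rw [Units.val_mul, det_mul, ey, hg, mul_one]; simp [l2]
    · rw [Units.val_mul, ey]
      intro h
      simp [l2, Matrix.mul_apply, hc] at h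
      rw [det_fin_two, hc, h] at hg
      simp at hg
  · exact key g hg hc

namespace Hyp

variable (H : Hyp R M)
include H

theorem yJ_row {c : F} (h : (rP R.yJ : Matrix (Fin 3) (Fin 3) F) 0 = ![c, 0, 0]) : False := by
  have e := congrArg (fun g => (rP g : Matrix (Fin 3) (Fin 3) F))
    (show R.yJ * R.qJ = R.qJ * R.tJ by rw [R.yJ_eq, inv_mul_cancel_right])
  simp only [map_mul, Units.val_mul, R.rP_tJ_wt] at e
  have k : ∀ j, c = R.e (wt j) := by
    intro j
    have := congrFun (congrFun e 0) j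
    rw [mul_diagonal, Matrix.mul_apply, Fin.sum_univ_three, h] at this
    simp at this
    exact mul_right_cancel₀ (R.rP_qJ_row j) (by linear_combination this)
  exact absurd (R.e_inj ((k 0).symm.trans (k 1))) (by decide)

theorem yJ_col (h1 : (rP R.yJ : Matrix (Fin 3) (Fin 3) F) 1 0 = 0)
    (h2 : (rP R.yJ : Matrix (Fin 3) (Fin 3) F) 2 0 = 0) : False := by
  have e := congrArg (fun g => (rP g : Matrix (Fin 3) (Fin 3) F))
    (show R.qJ⁻¹ * R.yJ = R.tJ * R.qJ⁻¹ by rw [R.yJ_eq]; group)
  simp only [map_mul, Units.val_mul, R.rP_tJ_wt] at e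
  have k : ∀ i, (rP R.yJ : Matrix (Fin 3) (Fin 3) F) 0 0 = R.e (wt i) := by
    intro i
    have := congrFun (congrFun e i) 0
    rw [diagonal_mul, Matrix.mul_apply, Fin.sum_univ_three, h1, h2, map_inv] at this
    simp only [mul_zero, add_zero] at this
    exact mul_left_cancel₀ (R.rP_qJ_inv_col i) (by linear_combination this)
  exact absurd (R.e_inj ((k 0).symm.trans (k 1))) (by decide)

theorem prime_eq_of_dvd_K3 {q : ℕ} (hq : q.Prime) (hd : q ∣ Nat.card (K3 M)) :
    q = Fintype.card F := by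
  classical
  by_contra hne
  haveI : Fact (Fintype.card F).Prime := ⟨H.prime⟩
  haveI : Fact q.Prime := ⟨hq⟩
  haveI : CharP F (Fintype.card F) := charP_of_card_eq_prime rfl
  obtain ⟨A, hA, hcomm, hAne, hinv⟩ := exists_invariant_abelian
    (conjAut (H.K3_conj H.tJ_mem) R.tJ_pow_five) (conjAut_pow_five _ _) H.five_not_dvd_K3 q hd
  obtain ⟨⟨a, haA⟩, ha1⟩ := (Subgroup.ne_bot_iff_exists_ne_one).1 hAne
  have hit : ∀ n : ℕ, (conjAut (H.K3_conj H.tJ_mem) R.tJ_pow_five ^ n) a ∈ A := by
    intro n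
    induction n with
    | zero => simpa using haA
    | succ n ih => rw [pow_succ', MulAut.mul_apply]; exact hinv _ ih
  set c : Fin 5 → A := fun i => ⟨_, hit (i : ℕ)⟩ with hc
  set Z : Fin 5 → Matrix (Fin 3) (Fin 3) F := fun i => (rP ((c i).1 : CJ F) : Matrix (Fin 3) (Fin 3) F)
    with hZdef
  obtain ⟨n, hn⟩ := IsPGroup.iff_card.1 hA
  have hcop : Nat.Coprime (Fintype.card F) (Nat.card A) := by
    rw [hn]
    exact Nat.Coprime.pow_right _ ((Nat.coprime_primes H.prime hq).2 (Ne.symm hne))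
  set m := Nat.totient (Nat.card A) with hm
  have hm1 : 0 < m := Nat.totient_pos.2 Nat.card_pos
  have hfix : ∀ g : A, g ^ (Fintype.card F ^ m) = g := by
    intro g
    have hmod : Fintype.card F ^ m % Nat.card A = 1 % Nat.card A := Nat.ModEq.pow_totient hcop
    rw [pow_eq_pow_mod _ (pow_card_eq_one' (x := g)), hmod,
      ← pow_eq_pow_mod _ (pow_card_eq_one' (x := g)), pow_one]
  have hZpow : ∀ i, Z i ^ (Fintype.card F ^ m) = Z i := by
    intro i
    have := congrArg (fun g : A => ((g.1 : CJ F))) (hfix (c i))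
    simp only [SubmonoidClass.coe_pow] at this
    simp only [hZdef]
    rw [← Units.val_pow_eq_pow_val, ← map_pow, this]
  have hZcomm : ∀ i j, Commute (Z i) (Z j) := by
    intro i j
    have := congrArg (fun g : K3 M => (g : CJ F)) (hcomm _ (c i).2 _ (c j).2)
    simp only [Subgroup.coe_mul] at this
    show Z i * Z j = Z j * Z i
    simp only [hZdef]
    rw [← Units.val_mul, ← Units.val_mul, ← map_mul, ← map_mul, this]
  set G := (rP (a : CJ F) : Matrix (Fin 3) (Fin 3) F) with hG
  have hent : ∀ i r s, Z i r s = R.e (i * (wt r - wt s)) * G r s := by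
    intro i r s
    have e : (c i).1.1 * R.tJ ^ (i : ℕ) = R.tJ ^ (i : ℕ) * (a : CJ F) := by
      rw [show (c i).1.1 = R.tJ ^ (i : ℕ) * (a : CJ F) * (R.tJ ^ (i : ℕ))⁻¹ from conjAut_pow _ _ _ _,
        inv_mul_cancel_right]
    have e' := congrArg (fun g => (rP g : Matrix (Fin 3) (Fin 3) F) r s) e
    simp only [map_mul, map_pow, Units.val_mul, Units.val_pow_eq_pow_val, R.rP_tJ_wt, diagonal_pow,
      mul_diagonal, diagonal_mul, Pi.pow_apply, R.e_mul, Fin.cast_val_eq_self] at e'
    refine mul_right_cancel₀ (R.e_ne (i * wt s)) ?_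
    rw [mul_right_comm, ← R.e_add, show i * (wt r - wt s) + i * wt s = i * wt r by ring]
    exact e'
  have hcF : ∀ x : F, x ^ (Fintype.card F ^ m) = x := fun x => FiniteField.pow_card_pow m x
  have hzero : ∀ d : Fin 5, d ≠ 0 → ∀ r s, wt r - wt s = d → G r s = 0 := by
    intro d hd0
    set h := ∑ i : Fin 5, R.e (-(d * i)) • Z i with hh
    have hval : ∀ r s, h r s = if wt r - wt s = d then 5 * G r s else 0 := by
      intro r s
      simp only [hh, Matrix.sum_apply, Matrix.smul_apply, smul_eq_mul, hent]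
      have : ∀ i : Fin 5, R.e (-(d * i)) * (R.e (i * (wt r - wt s)) * G r s) =
          R.e ((wt r - wt s - d) * i) * G r s := fun i => by
        rw [← mul_assoc, ← R.e_add]; congr 2; ring
      simp only [this, ← Finset.sum_mul]
      split_ifs with he
      · simp [he, R.e_zero]
      · rw [R.e_sum (sub_ne_zero.2 he), zero_mul]
    have h3 : h * h * h = 0 := by
      have hform : h = of fun r s => if wt r - wt s = d then 5 * G r s else 0 := Matrix.ext hval
      rw [hform]
      ext r s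
      fin_cases d <;> first
        | exact absurd rfl hd0
        | (fin_cases r <;> fin_cases s <;>
            simp [Matrix.mul_apply, Fin.sum_univ_three, wt, neg_one_five, neg_four_five,
              show (1 - 4 : Fin 5) = 2 from rfl, show (4 - 1 : Fin 5) = 3 from rfl])
    have hpow : h ^ (Fintype.card F ^ m) = h :=
      sum_pow_fixed (p := Fintype.card F) Finset.univ Z hZcomm hZpow _ fun i => hcF _
    have hge : 3 ≤ Fintype.card F ^ m :=
      le_trans (by have := H.h7; omega) (Nat.le_self_pow hm1.ne' _)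
    have h0 : h = 0 := by
      rw [← hpow, ← Nat.add_sub_of_le hge, pow_add, pow_succ, pow_two, h3, zero_mul]
    intro r s he
    have := hval r s
    rw [h0, Matrix.zero_apply, if_pos he] at this
    exact (mul_eq_zero.1 this.symm).resolve_left R.five
  have hdiag : G = diagonal ![G 0 0, G 1 1, G 2 2] := by
    ext r s
    fin_cases r <;> fin_cases s <;> simp <;>
      exact hzero _ (by decide) _ _ rfl
  have hcommT : Commute (a : CJ F) R.tJ := by
    refine eq_of_blocks R.two ?_ (Units.ext ?_)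
    · rw [map_mul, map_mul, show rM (a : CJ F) = 1 from a.2.2, one_mul, mul_one]
    · rw [map_mul, map_mul, Units.val_mul, Units.val_mul, ← hG, R.rP_tJ_wt, hdiag,
        diagonal_mul_diagonal, diagonal_mul_diagonal]
      congr 1; funext i; ring
  exact ha1 (Subtype.ext (Subtype.ext (H.fixed_eq_one H.gE_not_mem a.2 hcommT)))

theorem K3_eq_bot : K3 M = ⊥ := by
  classical
  haveI : Fact (Fintype.card F).Prime := ⟨H.prime⟩
  by_contra hne
  have hp : IsPGroup (Fintype.card F) (K3 M) := by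
    obtain hc := Nat.eq_prime_pow_of_unique_prime_dvd (n := Nat.card (K3 M)) (p := Fintype.card F)
      Nat.card_pos.ne' fun hq hd => H.prime_eq_of_dvd_K3 hq hd
    exact IsPGroup.of_card hc
  letI : MulAction (K3 M) (Fin 3 → F) :=
    { smul := fun k v => (rP (k : CJ F) : Matrix (Fin 3) (Fin 3) F) *ᵥ v
      one_smul := fun v => by
        show (rP ((1 : K3 M) : CJ F) : Matrix (Fin 3) (Fin 3) F) *ᵥ v = v
        rw [OneMemClass.coe_one, map_one, Units.val_one, one_mulVec]
      mul_smul := fun a b v => by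
        show (rP ((a * b : K3 M) : CJ F) : Matrix (Fin 3) (Fin 3) F) *ᵥ v =
          (rP (a : CJ F) : Matrix (Fin 3) (Fin 3) F) *ᵥ ((rP (b : CJ F) : Matrix (Fin 3) (Fin 3) F) *ᵥ v)
        rw [Subgroup.coe_mul, map_mul, Units.val_mul, mulVec_mulVec] }
  let W : Submodule F (Fin 3 → F) :=
    { carrier := {v | ∀ k ∈ K3 M, (rP k : Matrix (Fin 3) (Fin 3) F) *ᵥ v = v}
      add_mem' := fun {a b} ha hb k hk => by rw [mulVec_add, ha k hk, hb k hk]
      zero_mem' := fun k _ => mulVec_zero _
      smul_mem' := fun c v hv k hk => by rw [mulVec_smul, hv k hk] }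
  have hWfix : MulAction.fixedPoints (K3 M) (Fin 3 → F) = (W : Set (Fin 3 → F)) := by
    ext v
    exact ⟨fun h k hk => h ⟨k, hk⟩, fun h k => h k.1 k.2⟩
  obtain ⟨v, hv, hv0⟩ : ∃ v ∈ W, v ≠ 0 := by
    obtain ⟨v, hv, hne0⟩ := hp.exists_fixed_point_of_prime_dvd_card_of_fixed_point (Fin 3 → F)
      (by
        rw [Nat.card_eq_fintype_card, Fintype.card_fun, Fintype.card_fin]
        exact dvd_pow_self _ (by norm_num))
      (a := 0) (fun k => mulVec_zero _)
    refine ⟨v, ?_, Ne.symm hne0⟩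
    rw [← SetLike.mem_coe, ← hWfix]
    exact hv
  have hinv : ∀ g ∈ DJ M, ∀ u ∈ W, (rP g : Matrix (Fin 3) (Fin 3) F) *ᵥ u ∈ W := by
    intro g hg u hu k hk
    have hk' : g⁻¹ * k * g ∈ K3 M := by
      simpa using H.K3_conj ((DJ M).inv_mem hg) k hk
    rw [mulVec_mulVec, ← Units.val_mul, ← map_mul, show k * g = g * (g⁻¹ * k * g) by group,
      map_mul, Units.val_mul, ← mulVec_mulVec, hu _ hk']
  have hproj : ∀ u ∈ W, ∀ j, u j • (Pi.single j 1 : Fin 3 → F) ∈ W := by
    intro u hu j
    have hpw : ∀ n : ℕ, (fun i => R.e (wt i) ^ n * u i) ∈ W := by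
      intro n
      induction n with
      | zero => simpa using hu
      | succ n ih =>
        have := hinv _ H.tJ_mem _ ih
        convert this using 1
        funext i
        rw [R.rP_tJ_wt, mulVec_diagonal, pow_succ]; ring
    have hsum : (∑ n : Fin 5, R.e (-(wt j * n)) • fun i => R.e (wt i) ^ (n : ℕ) * u i) ∈ W :=
      Submodule.sum_mem _ fun n _ => Submodule.smul_mem _ _ (hpw _)
    have he : (∑ n : Fin 5, R.e (-(wt j * n)) • fun i => R.e (wt i) ^ (n : ℕ) * u i) =
        (5 : F) • (u j • (Pi.single j 1 : Fin 3 → F)) := by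
      funext i
      simp only [Finset.sum_apply, Pi.smul_apply, smul_eq_mul]
      have : ∀ n : Fin 5, R.e (-(wt j * n)) * (R.e (wt i) ^ (n : ℕ) * u i) =
          R.e ((wt i - wt j) * n) * u i := by
        intro n
        rw [← mul_assoc, R.e_mul, Fin.cast_val_eq_self, ← R.e_add]
        congr 2; ring
      simp only [this, ← Finset.sum_mul]
      by_cases hij : i = j
      · subst hij; simp [R.e_zero]
      · rw [R.e_sum (sub_ne_zero.2 fun e => hij
          ((by decide : ∀ i j : Fin 3, wt i = wt j → i = j) i j e))]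
        simp [hij]
    have := W.smul_mem (5 : F)⁻¹ (he ▸ hsum)
    rwa [smul_smul, inv_mul_cancel₀ R.five, one_smul] at this
  have hsingle : ∀ u ∈ W, ∀ j, u j ≠ 0 → (Pi.single j 1 : Fin 3 → F) ∈ W := by
    intro u hu j hj
    have := W.smul_mem (u j)⁻¹ (hproj u hu j)
    rwa [smul_smul, inv_mul_cancel₀ hj, one_smul] at this
  have hs12 : ((Pi.single 1 1 : Fin 3 → F) ∈ W ↔ (Pi.single 2 1 : Fin 3 → F) ∈ W) := by
    constructor <;> intro h <;> have h' := hinv _ H.sJ_mem _ h <;>
      rw [rP_sJ, mulVec_single_one] at h' <;> refine hsingle _ h' _ ?_ <;> simp [Matrix.col]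
  have hnotall : ¬ ∀ j : Fin 3, (Pi.single j 1 : Fin 3 → F) ∈ W := by
    intro hall
    apply hne
    rw [Subgroup.eq_bot_iff_forall]
    intro k hk
    refine eq_of_blocks R.two (by rw [map_one]; exact hk.2) (Units.ext (Matrix.ext fun i j => ?_))
    have := congrFun (hall j k hk) i
    rw [mulVec_single_one] at this
    simp only [Matrix.col_apply] at this
    rw [this, map_one, Units.val_one, Matrix.one_apply, Pi.single_apply]
  have hY : ∀ (r j : Fin 3), (Pi.single j 1 : Fin 3 → F) ∈ W →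
      (rP R.yJ : Matrix (Fin 3) (Fin 3) F) r j ≠ 0 → (Pi.single r 1 : Fin 3 → F) ∈ W := by
    intro r j hj hr
    refine hsingle _ (hinv _ H.yJ_mem _ hj) r ?_
    rwa [mulVec_single_one, Matrix.col_apply]
  by_cases h0 : (Pi.single 0 1 : Fin 3 → F) ∈ W
  · refine H.yJ_col (by_contra fun h => hnotall ?_) (by_contra fun h => hnotall ?_)
    · have h1 := hY 1 0 h0 h
      intro j; fin_cases j
      · exact h0
      · exact h1
      · exact hs12.1 h1
    · have h2 := hY 2 0 h0 h
      intro j; fin_cases j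
      · exact h0
      · exact hs12.2 h2
      · exact h2
  · obtain ⟨j, hj⟩ := Function.ne_iff.1 hv0
    have hj' := hsingle v hv j hj
    have h12 : (Pi.single 1 1 : Fin 3 → F) ∈ W ∧ (Pi.single 2 1 : Fin 3 → F) ∈ W := by
      fin_cases j
      · exact absurd hj' h0
      · exact ⟨hj', hs12.1 hj'⟩
      · exact ⟨hs12.2 hj', hj'⟩
    refine H.yJ_row (c := (rP R.yJ : Matrix (Fin 3) (Fin 3) F) 0 0) (funext fun i => ?_)
    fin_cases i
    · simp
    · exact by_contra fun h => h0 (hY 0 1 h12.1 h)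
    · exact by_contra fun h => h0 (hY 0 2 h12.2 h)

theorem eq_of_rM {g h : CJ F} (hg : g ∈ DJ M) (hh : h ∈ DJ M) (e : rM g = rM h) : g = h := by
  have hk : g * h⁻¹ ∈ K3 M := ⟨(DJ M).mul_mem hg ((DJ M).inv_mem hh),
    show rM (g * h⁻¹) = 1 by rw [map_mul, map_inv, e, mul_inv_cancel]⟩
  rw [H.K3_eq_bot, Subgroup.mem_bot] at hk
  exact mul_inv_eq_one.1 hk

theorem image_not_dvd : ¬ Fintype.card F ∣ Nat.card ((DJ M).map pM) := by
  classical
  intro hd
  haveI : Fact (Fintype.card F).Prime := ⟨H.prime⟩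
  haveI : CharP F (Fintype.card F) := charP_of_card_eq_prime rfl
  obtain ⟨l, hl, hlu⟩ := H.exists_u hd
  obtain ⟨k, hk⟩ := exists_nat_cast H.prime (R.e 2)
  have hu0 : u2 (0 : F) = 1 := by ext i j; fin_cases i <;> fin_cases j <;> simp [u2]
  have hlp : l ^ Fintype.card F = 1 := by
    refine H.eq_of_rM (pow_mem hl _) (DJ M).one_mem (Units.ext ?_)
    rw [map_pow, Units.val_pow_eq_pow_val, hlu, u2_pow, FiniteField.cast_card_eq_zero, zero_mul, hu0,
      map_one, Units.val_one]
  have hconj : R.tJ * l * R.tJ⁻¹ = l ^ k := by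
    refine H.eq_of_rM ((DJ M).mul_mem ((DJ M).mul_mem H.tJ_mem hl) ((DJ M).inv_mem H.tJ_mem))
      (pow_mem hl _) ?_
    rw [map_mul, map_mul, map_inv, mul_inv_eq_iff_eq_mul, map_pow]
    refine Units.ext ?_
    rw [Units.val_mul, Units.val_mul, Units.val_pow_eq_pow_val, hlu, u2_pow, hk, mul_one, R.rM_tJ]
    ext i j
    fin_cases i <;> fin_cases j <;> simp [u2, Matrix.mul_apply]
    rw [← R.e_add]; rfl
  obtain ⟨-, L, hL, -, hP⟩ := H.homog hlu hlp hk hconj
  have hLf : L = !![0, 0, 0; 0, 0, L 1 2; 0, 0, 0] := by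
    ext i j; fin_cases i <;> fin_cases j <;> simp <;> exact hL _ _ (by decide)
  have hPf : (rP l : Matrix (Fin 3) (Fin 3) F) = !![1, 0, 0; 0, 1, L 1 2; 0, 0, 1] := by
    rw [hP, hLf]
    ext i j; fin_cases i <;> fin_cases j <;> simp [Matrix.mul_apply, Fin.sum_univ_three]
  set s := L 1 2
  have hs : s ≠ 0 := by
    intro h
    have h1 := H.eq_one_of_transvM hl (Units.ext (by
      rw [hPf, h, Units.val_one]; ext i j; fin_cases i <;> fin_cases j <;> simp)) 1 hlu
    rw [h1, map_one, Units.val_one] at hlu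
    have := congrFun (congrFun hlu 0) 1
    simp [u2] at this
  set l' := sJ * l * (sJ : CJ F)⁻¹ with hl'def
  have hl' : l' ∈ DJ M := (DJ M).mul_mem ((DJ M).mul_mem H.sJ_mem hl) ((DJ M).inv_mem H.sJ_mem)
  have hl'u : (rM l' : Matrix (Fin 2) (Fin 2) F) = l2 (-1) := by
    have h := congrArg (fun g => (rM g : Matrix (Fin 2) (Fin 2) F))
      (show l' * sJ = sJ * l by rw [hl'def, inv_mul_cancel_right])
    simp only [map_mul, Units.val_mul, hlu, show (rM (sJ : CJ F) : Matrix (Fin 2) (Fin 2) F) =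
      !![0, 1; -1, 0] from rM_gS] at h
    have a := congrFun (congrFun h 0) 0
    have b := congrFun (congrFun h 0) 1
    have c := congrFun (congrFun h 1) 0
    have d := congrFun (congrFun h 1) 1
    simp [u2, Matrix.mul_apply] at a b c d
    ext i j
    fin_cases i <;> fin_cases j <;> simp [l2]
    all_goals first
      | linear_combination a | linear_combination -a | linear_combination b | linear_combination -b
      | linear_combination c | linear_combination -c | linear_combination d | linear_combination -d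
  have hl'P : (rP l' : Matrix (Fin 3) (Fin 3) F) = !![1, 0, 0; 0, 1, 0; 0, s, 1] := by
    have h := congrArg (fun g => (rP g : Matrix (Fin 3) (Fin 3) F))
      (show l' * sJ = sJ * l by rw [hl'def, inv_mul_cancel_right])
    simp only [map_mul, Units.val_mul, hPf, rP_sJ] at h
    have e : (rP l' : Matrix (Fin 3) (Fin 3) F) =
        !![-1, 0, 0; 0, 0, -1; 0, -1, 0] * !![1, 0, 0; 0, 1, s; 0, 0, 1] *
          !![-1, 0, 0; 0, 0, -1; 0, -1, 0] := by
      rw [← h, mul_assoc]
      have hss : (!![-1, 0, 0; 0, 0, -1; 0, -1, 0] * !![-1, 0, 0; 0, 0, -1; 0, -1, 0] :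
          Matrix (Fin 3) (Fin 3) F) = 1 := by
        ext i j; fin_cases i <;> fin_cases j <;> simp [Matrix.mul_apply, Fin.sum_univ_three]
      rw [hss, mul_one]
    rw [e]
    ext i j; fin_cases i <;> fin_cases j <;> simp [Matrix.mul_apply, Fin.sum_univ_three]
  -- everything in the group they generate fixes `e₀`
  let S : Subgroup (CJ F) := Subgroup.closure {l, l'}
  have hSD : S ≤ DJ M := (Subgroup.closure_le _).2 (by simp [Set.insert_subset_iff, hl, hl'])
  let E : Subgroup (CJ F) :=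
    { carrier := {g | (rP g : Matrix (Fin 3) (Fin 3) F) *ᵥ Pi.single 0 1 = Pi.single 0 1}
      one_mem' := by
        show (rP (1 : CJ F) : Matrix (Fin 3) (Fin 3) F) *ᵥ _ = _
        rw [map_one, Units.val_one, one_mulVec]
      mul_mem' := fun {a b} ha hb => by
        show (rP (a * b) : Matrix (Fin 3) (Fin 3) F) *ᵥ _ = _
        rw [map_mul, Units.val_mul, ← mulVec_mulVec, hb, ha]
      inv_mem' := fun {a} ha => by
        show (rP a⁻¹ : Matrix (Fin 3) (Fin 3) F) *ᵥ _ = _
        nth_rw 1 [← ha]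
        rw [mulVec_mulVec, ← Units.val_mul, ← map_mul, inv_mul_cancel, map_one, Units.val_one,
          one_mulVec] }
  have hSE : S ≤ E := by
    refine (Subgroup.closure_le _).2 ?_
    rintro g (rfl | rfl)
    · show (rP g : Matrix (Fin 3) (Fin 3) F) *ᵥ Pi.single 0 1 = Pi.single 0 1
      rw [hPf, mulVec_single_one]
      funext i; fin_cases i <;> simp [Matrix.col]
    · show (rP l' : Matrix (Fin 3) (Fin 3) F) *ᵥ Pi.single 0 1 = Pi.single 0 1
      rw [hl'P, mulVec_single_one]
      funext i; fin_cases i <;> simp [Matrix.col]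
  have hu : ∀ a : F, ∃ g ∈ S.map rM, (g : Matrix (Fin 2) (Fin 2) F) = u2 a := by
    intro a
    obtain ⟨n, hn⟩ := exists_nat_cast H.prime a
    refine ⟨rM (l ^ n), Subgroup.mem_map_of_mem _ (pow_mem (Subgroup.subset_closure (by simp)) _), ?_⟩
    rw [map_pow, Units.val_pow_eq_pow_val, hlu, u2_pow, hn, mul_one]
  have hl2 : ∀ a : F, ∃ g ∈ S.map rM, (g : Matrix (Fin 2) (Fin 2) F) = l2 a := by
    intro a
    obtain ⟨n, hn⟩ := exists_nat_cast H.prime (-a)
    refine ⟨rM (l' ^ n), Subgroup.mem_map_of_mem _ (pow_mem (Subgroup.subset_closure (by simp)) _), ?_⟩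
    rw [map_pow, Units.val_pow_eq_pow_val, hl'u]
    have : ∀ m : ℕ, l2 (-1 : F) ^ m = l2 (-(m : F)) := by
      intro m
      induction m with
      | zero => ext i j; fin_cases i <;> fin_cases j <;> simp [l2]
      | succ m ih =>
        rw [pow_succ, ih]
        ext i j; fin_cases i <;> fin_cases j <;> simp [l2, Matrix.mul_apply]
        ring
    rw [this, hn, neg_neg]
  -- so `Y⁻¹ e₀` is fixed by both
  set v := (rP R.yJ⁻¹ : Matrix (Fin 3) (Fin 3) F) *ᵥ Pi.single 0 1 with hvdef
  have hfixv : ∀ g ∈ S, (rP g : Matrix (Fin 3) (Fin 3) F) *ᵥ v = v := by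
    intro g hg
    have hgD : R.yJ * g * R.yJ⁻¹ ∈ DJ M :=
      (DJ M).mul_mem ((DJ M).mul_mem H.yJ_mem (hSD hg)) ((DJ M).inv_mem H.yJ_mem)
    have hdetg : (rM g : Matrix (Fin 2) (Fin 2) F).det = 1 := by
      have : S ≤ ((Matrix.GeneralLinearGroup.det).comp rM).ker := by
        refine (Subgroup.closure_le _).2 ?_
        rintro x (rfl | rfl) <;> refine Units.ext ?_ <;>
          simp [hlu, hl'u, u2, l2, det_fin_two]
      have h := congrArg Units.val (MonoidHom.mem_ker.1 (this hg))
      simpa using h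
    obtain ⟨h, hh, he⟩ := mem_of_det_one hu hl2 (g := rM (R.yJ * g * R.yJ⁻¹)) (by
      rw [map_mul, map_mul, map_inv, Units.val_mul, Units.val_mul, det_units_conj, hdetg])
    have := H.eq_of_rM (hSD hh) hgD he
    have hE : (rP (R.yJ * g * R.yJ⁻¹) : Matrix (Fin 3) (Fin 3) F) *ᵥ Pi.single 0 1 = Pi.single 0 1 :=
      hSE (this ▸ hh)
    rw [map_mul, map_mul, Units.val_mul, Units.val_mul, ← mulVec_mulVec, ← mulVec_mulVec, ← hvdef] at hE
    have := congrArg (fun u => (rP R.yJ⁻¹ : Matrix (Fin 3) (Fin 3) F) *ᵥ u) hE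
    rw [mulVec_mulVec, ← Units.val_mul, ← map_mul, inv_mul_cancel, map_one, Units.val_one,
      one_mulVec, ← hvdef] at this
    exact this
  have hv2 : v 2 = 0 := by
    have := congrFun (hfixv l (Subgroup.subset_closure (by simp))) 1
    rw [hPf] at this
    simp [mulVec, dotProduct, Fin.sum_univ_three] at this
    exact this.resolve_left hs
  have hv1 : v 1 = 0 := by
    have := congrFun (hfixv l' (Subgroup.subset_closure (by simp))) 2
    rw [hl'P] at this
    simp [mulVec, dotProduct, Fin.sum_univ_three] at this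
    exact this.resolve_left hs
  have hYv : (rP R.yJ : Matrix (Fin 3) (Fin 3) F) *ᵥ v = Pi.single 0 1 := by
    rw [hvdef, mulVec_mulVec, ← Units.val_mul, ← map_mul, mul_inv_cancel, map_one, Units.val_one,
      one_mulVec]
  have h0 := congrFun hYv 0
  have h1 := congrFun hYv 1
  have h2 := congrFun hYv 2
  simp [mulVec, dotProduct, Fin.sum_univ_three, hv1, hv2] at h0 h1 h2
  have hv0 : v 0 ≠ 0 := fun h => by rw [h, mul_zero] at h0; exact zero_ne_one h0
  exact H.yJ_col (h1.resolve_right hv0) (h2.resolve_right hv0)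

theorem exists_scalar_of_pM {g : CJ F} (hg : g ∈ DJ M) (h1 : pM g = 1) :
    ∃ c : F, c ^ 5 = 1 ∧ (((g : GL (Fin 5) F) : Matrix (Fin 5) (Fin 5) F) = c • 1 ∨
      ((g : GL (Fin 5) F) : Matrix (Fin 5) (Fin 5) F) =
        c • ((gJ : GL (Fin 5) F) : Matrix (Fin 5) (Fin 5) F)) := by
  have h2 := R.two
  obtain ⟨l, hl0, hl⟩ := exists_smul_one_of_mk (A := rM g) h1
  have hcomm : ∀ h ∈ DJ M, g * h = h * g := fun h hh =>
    H.eq_of_rM ((DJ M).mul_mem hg hh) ((DJ M).mul_mem hh hg) (Units.ext (by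
      rw [map_mul, map_mul, Units.val_mul, Units.val_mul, hl, smul_mul_assoc, mul_smul_comm,
        one_mul, mul_one]))
  have eT := congrArg (fun x => (rP x : Matrix (Fin 3) (Fin 3) F)) (hcomm _ H.tJ_mem)
  simp only [map_mul, Units.val_mul, R.rP_tJ_wt] at eT
  have hd := diag_of_commute_wt R eT
  set a := (rP g : Matrix (Fin 3) (Fin 3) F) 0 0
  set b := (rP g : Matrix (Fin 3) (Fin 3) F) 1 1
  set d := (rP g : Matrix (Fin 3) (Fin 3) F) 2 2
  have eS := congrArg (fun x => (rP x : Matrix (Fin 3) (Fin 3) F)) (hcomm _ H.sJ_mem)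
  have eY := congrArg (fun x => (rP x : Matrix (Fin 3) (Fin 3) F)) (hcomm _ H.yJ_mem)
  simp only [map_mul, Units.val_mul, hd, rP_sJ] at eS eY
  have hbd : b = d := by
    have := congrFun (congrFun eS 1) 2
    simp [Matrix.mul_apply, Fin.sum_univ_three] at this
    linear_combination this
  have hab : a = b := by
    by_contra hne
    refine H.yJ_row (c := (rP R.yJ : Matrix (Fin 3) (Fin 3) F) 0 0) (funext fun i => ?_)
    have := congrFun (congrFun eY 0) i
    rw [diagonal_mul, mul_diagonal] at this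
    fin_cases i
    · simp
    · simp at this ⊢
      exact (mul_eq_zero.1 (show (a - b) * (rP R.yJ : Matrix (Fin 3) (Fin 3) F) 0 1 = 0 by
        linear_combination this)).resolve_left (sub_ne_zero.2 hne)
    · simp at this ⊢
      rw [← hbd] at this
      exact (mul_eq_zero.1 (show (a - b) * (rP R.yJ : Matrix (Fin 3) (Fin 3) F) 0 2 = 0 by
        linear_combination this)).resolve_left (sub_ne_zero.2 hne)
  have hm := CJ_matrix h2 g
  rw [hl, hd, hab, ← hbd] at hm
  have hz := H.mul_eq_zero_one (g := (g : GL (Fin 5) F)) hg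
    (congrArg Subtype.val (hcomm _ H.tJ_mem)) (mem_CJ.1 g.2)
  rw [hm] at hz
  simp [mat5] at hz
  have hdet := GeoClasses.mem_specialLinear_iff.1 (H.le (show (g : GL (Fin 5) F) ∈ M from hg))
  have hcases : l = b ∨ l = -b := by
    rcases hz with (h | h) | (h | h) <;>
      first | exact absurd h h2 | exact Or.inl (by linear_combination -h) | exact Or.inr (by linear_combination h)
  rcases hcases with h | h
  · have hv : ((g : GL (Fin 5) F) : Matrix (Fin 5) (Fin 5) F) = b • 1 := by
      rw [hm, h]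
      ext i j; fin_cases i <;> fin_cases j <;> simp [mat5] <;> field_simp <;> ring
    rw [hv, det_smul, det_one, mul_one, Fintype.card_fin] at hdet
    exact ⟨b, hdet, Or.inl hv⟩
  · have hv : ((g : GL (Fin 5) F) : Matrix (Fin 5) (Fin 5) F) =
        b • ((gJ : GL (Fin 5) F) : Matrix (Fin 5) (Fin 5) F) := by
      rw [hm, h]
      ext i j; fin_cases i <;> fin_cases j <;>
        simp [mat5, val_gJ, neg_one_five, neg_two_five, neg_three_five, neg_four_five] <;>
          field_simp <;> ring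
    rw [hv, det_smul, det_gJ, mul_one, Fintype.card_fin] at hdet
    exact ⟨b, hdet, Or.inr hv⟩

/-- The only involution of `C_M(J)` is `J`. -/
theorem involution_eq {g : GL (Fin 5) F} (hg : g ∈ M) (hJ : Commute g gJ) (h2 : g * g = 1) :
    g = 1 ∨ g = gJ := by
  classical
  set x : CJ F := ⟨g, mem_CJ.2 hJ⟩
  have hx : x ∈ DJ M := hg
  have hx2 : x * x = 1 := Subtype.ext h2
  have hone : pM x = 1 := by
    by_contra hne
    obtain ⟨-, hcl, -, -⟩ := H.image_a5 H.image_not_dvd
    have hmem : pM x ∈ (Subgroup.closure {R.tJ, R.yJ}).map pM := by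
      rw [MonoidHom.map_closure, Set.image_pair, hcl]
      exact Subgroup.mem_map_of_mem _ hx
    obtain ⟨h, hh, he⟩ := hmem
    have hhD : h ∈ DJ M :=
      (Subgroup.closure_le _).2 (by simp [Set.insert_subset_iff, H.tJ_mem, H.yJ_mem]) hh
    have hdet : (rM h : Matrix (Fin 2) (Fin 2) F).det = 1 := by
      have hT : Matrix.GeneralLinearGroup.det (rM R.tJ) = 1 := Units.ext (by
        simp [R.rM_tJ, det_fin_two]
        rw [← R.e_add]; exact R.e_zero)
      have hsub : Subgroup.closure {R.tJ, R.yJ} ≤ ((Matrix.GeneralLinearGroup.det).comp rM).ker := by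
        refine (Subgroup.closure_le _).2 ?_
        rintro y (rfl | rfl)
        · exact hT
        · show Matrix.GeneralLinearGroup.det (rM R.yJ) = 1
          rw [R.yJ_eq, map_mul, map_mul, map_mul, map_mul, hT, mul_one, ← map_mul, ← map_mul,
            mul_inv_cancel, map_one, map_one]
      simpa using congrArg Units.val (MonoidHom.mem_ker.1 (hsub hh))
    have hk : h⁻¹ * x ∈ DJ M := (DJ M).mul_mem ((DJ M).inv_mem hhD) hx
    obtain ⟨c, hc5, hc⟩ := H.exists_scalar_of_pM hk (by rw [map_mul, map_inv, he, inv_mul_cancel])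
    have hr : ∃ μ : F, μ ^ 10 = 1 ∧ (rM (h⁻¹ * x) : Matrix (Fin 2) (Fin 2) F) = μ • 1 := by
      rcases hc with hc | hc
      · refine ⟨c, by rw [show (10 : ℕ) = 5 * 2 from rfl, pow_mul, hc5, one_pow], ?_⟩
        rw [val_rM, hc]
        ext i j; fin_cases i <;> fin_cases j <;> simp [matM]
      · refine ⟨-c, by rw [Even.neg_pow (by decide), show (10 : ℕ) = 5 * 2 from rfl, pow_mul, hc5,
          one_pow], ?_⟩
        rw [val_rM, hc]
        ext i j; fin_cases i <;> fin_cases j <;>
          simp [matM, val_gJ, neg_one_five, neg_two_five, neg_three_five, neg_four_five]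
    obtain ⟨μ, hμ, hμe⟩ := hr
    set B := (rM h : Matrix (Fin 2) (Fin 2) F) with hB
    have hx' : (rM x : Matrix (Fin 2) (Fin 2) F) = μ • B := by
      have : rM x = rM h * rM (h⁻¹ * x) := by rw [← map_mul, mul_inv_cancel_left]
      rw [this, Units.val_mul, hμe, mul_smul_comm, mul_one]
    have hBB : (μ * μ) • (B * B) = 1 := by
      have := congrArg (fun y => (rM y : Matrix (Fin 2) (Fin 2) F)) hx2
      simp only [map_mul, map_one, Units.val_mul, Units.val_one, hx', smul_mul_assoc,
        mul_smul_comm, smul_smul] at this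
      exact this
    have hμ4 : (μ * μ) ^ 2 = 1 := by
      have := congrArg Matrix.det hBB
      rwa [det_smul, det_mul, hdet, mul_one, mul_one, det_one, Fintype.card_fin] at this
    have hμ2 : μ * μ = 1 := by
      have : μ ^ 10 = (μ * μ) * ((μ * μ) ^ 2) ^ 2 := by ring
      rw [hμ, hμ4, one_pow, mul_one] at this
      exact this.symm
    rw [hμ2, one_smul] at hBB
    have t00 := congrFun (congrFun hBB 0) 0
    have t01 := congrFun (congrFun hBB 0) 1
    have t10 := congrFun (congrFun hBB 1) 0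
    have t11 := congrFun (congrFun hBB 1) 1
    rw [det_fin_two] at hdet
    simp [Matrix.mul_apply] at t00 t01 t10 t11
    have ht : B 0 0 + B 1 1 ≠ 0 := fun h0 => R.two (by
      linear_combination -t00 + B 0 0 * h0 - hdet)
    have b01 : B 0 1 = 0 := (mul_eq_zero.1 (show (B 0 0 + B 1 1) * B 0 1 = 0 by
      linear_combination t01)).resolve_left ht
    have b10 : B 1 0 = 0 := (mul_eq_zero.1 (show (B 0 0 + B 1 1) * B 1 0 = 0 by
      linear_combination t10)).resolve_left ht
    have beq : B 0 0 = B 1 1 := sub_eq_zero.1 ((mul_eq_zero.1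
      (show (B 0 0 + B 1 1) * (B 0 0 - B 1 1) = 0 by
        linear_combination t00 - t11)).resolve_left ht)
    apply hne
    rw [← he]
    refine ProjGenLinGroup.mk_eq_one.2 (GeneralLinearGroup.mem_center_iff_val_eq_scalar.2 ?_)
    refine ⟨B 1 1, ?_⟩
    ext i j; fin_cases i <;> fin_cases j <;> simp [b01, b10, beq, ← hB]
  obtain ⟨c, hc5, hc⟩ := H.exists_scalar_of_pM hx hone
  have hc2 : c * c = 1 := by
    have e := congrArg Units.val h2
    rw [Units.val_mul, Units.val_one] at e
    have e' : ((x : GL (Fin 5) F) : Matrix (Fin 5) (Fin 5) F) *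
        ((x : GL (Fin 5) F) : Matrix (Fin 5) (Fin 5) F) = 1 := e
    have hJJ : ((gJ : GL (Fin 5) F) : Matrix (Fin 5) (Fin 5) F) *
        ((gJ : GL (Fin 5) F) : Matrix (Fin 5) (Fin 5) F) = 1 := (gJ : GL (Fin 5) F).val_inv
    rcases hc with hc | hc <;> rw [hc, smul_mul_assoc, mul_smul_comm, smul_smul] at e'
    · rw [mul_one] at e'
      have := congrFun (congrFun e' 0) 0
      simpa using this
    · rw [hJJ] at e'
      have := congrFun (congrFun e' 0) 0
      simpa using this
  have hc1 : c = 1 := by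
    have : c ^ 5 = c * (c * c) ^ 2 := by ring
    rw [hc5, hc2, one_pow, mul_one] at this
    exact this.symm
  rw [hc1, one_smul, one_smul] at hc
  rcases hc with hc | hc
  · exact Or.inl (Units.ext hc)
  · exact Or.inr (Units.ext hc)

/-- Odd normal subgroups of `C_M(J)` are scalar. -/
theorem odd_normal_scalar {N : Subgroup (GL (Fin 5) F)} (hN : N ≤ M ⊓ CJ F)
    (hn : ∀ g ∈ M, g ∈ CJ F → ∀ n ∈ N, g * n * g⁻¹ ∈ N) (hodd : Odd (Nat.card N))
    {g : GL (Fin 5) F} (hg : g ∈ N) :
    ∃ c : F, (g : Matrix (Fin 5) (Fin 5) F) = c • 1 := by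
  classical
  obtain ⟨h60, -, hsimple, -⟩ := H.image_a5 H.image_not_dvd
  set P := (DJ M).map pM with hP
  let NJ : Subgroup (CJ F) := N.subgroupOf (CJ F)
  have hNJ : NJ ≤ DJ M := fun x hx => (hN hx).1
  have hcard : Nat.card NJ = Nat.card N :=
    Nat.card_congr (Subgroup.subgroupOfEquivOfLe fun x hx => (hN hx).2).toEquiv
  let Q : Subgroup P := (NJ.map pM).subgroupOf P
  have hQn : Q.Normal := by
    constructor
    rintro ⟨n, hn'⟩ hnQ ⟨y, hy⟩
    obtain ⟨k, hk, rfl⟩ := (hnQ : n ∈ NJ.map pM)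
    obtain ⟨z, hz, rfl⟩ := hy
    exact ⟨z * k * z⁻¹, hn _ hz z.2 _ hk, by simp⟩
  have hQ : NJ.map pM = ⊥ := by
    have hle : NJ.map pM ≤ P := Subgroup.map_mono hNJ
    haveI := hsimple
    rcases hQn.eq_bot_or_eq_top with h | h
    · rw [← Subgroup.map_subgroupOf_eq_of_le hle]
      show Q.map P.subtype = ⊥
      rw [h, Subgroup.map_bot]
    · exfalso
      have heq : NJ.map pM = P := le_antisymm hle (Subgroup.subgroupOf_eq_top.1 h)
      have hd := Subgroup.card_map_dvd NJ pM
      rw [heq, h60, hcard] at hd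
      exact Nat.not_even_iff_odd.2 hodd (even_iff_two_dvd.2 (dvd_trans (by norm_num) hd))
  have hone : pM ⟨g, (hN hg).2⟩ = 1 := by
    rw [← Subgroup.mem_bot, ← hQ]
    exact Subgroup.mem_map_of_mem pM (show (⟨g, (hN hg).2⟩ : CJ F) ∈ NJ from hg)
  obtain ⟨c, hc5, hc⟩ := H.exists_scalar_of_pM (g := ⟨g, (hN hg).2⟩) (hN hg).1 hone
  rcases hc with hc | hc
  · exact ⟨c, hc⟩
  · exfalso
    have h5 : g ^ 5 = gJ := by
      refine Units.ext ?_
      rw [Units.val_pow_eq_pow_val, show (g : Matrix (Fin 5) (Fin 5) F) =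
        c • ((gJ : GL (Fin 5) F) : Matrix (Fin 5) (Fin 5) F) from hc, smul_pow, hc5, one_smul,
        ← Units.val_pow_eq_pow_val, pow_succ, pow_succ, pow_succ, pow_two, gJ_sq, one_mul, gJ_sq,
        one_mul]
    have hJN : (gJ : GL (Fin 5) F) ∈ N := h5 ▸ pow_mem hg 5
    haveI : Fact (Nat.Prime 2) := ⟨Nat.prime_two⟩
    have ho : orderOf (⟨gJ, hJN⟩ : N) = 2 := by
      rw [Subgroup.orderOf_mk]
      refine orderOf_eq_prime (by rw [sq, gJ_sq]) fun h => ?_
      have := congrArg (fun x : GL (Fin 5) F => (x : Matrix (Fin 5) (Fin 5) F) 1 1) h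
      rw [val_gJ, Units.val_one, if_neg (by decide), Matrix.one_apply_eq] at this
      exact zero_ne_one this
    exact Nat.not_even_iff_odd.2 hodd (even_iff_two_dvd.2 (ho ▸ _root_.orderOf_dvd_natCard _))

end Hyp

end Cfsg.Agent.MaxSub.CSixFive
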