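import Cfsg.Agent.MaxSub.Dickson.Maximal
import Cfsg.Agent.Linear.Transvection

/-!
Facts on subgroups of `PGL(2, p)` with elements of order five, from Dickson's list.
-/

set_option autoImplicit false
set_option linter.unusedSectionVars false
set_option linter.style.haveILetI false

namespace Cfsg.Agent.MaxSub.CSixFive.Plane

open Matrix MulAction Cfsg.Agent.MaxSub
open scoped MatrixGroups OnePoint Cfsg.Agent.MaxSub.Dickson

/-! ### the rotation groups -/

theorem a5_centraliser_involution : ∀ s g : alternatingGroup (Fin 5),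
    g * s = s * g → s * s = 1 → s = 1 ∨ g * g = 1 := by decide +kernel

theorem a5_centraliser_five : ∀ x e : alternatingGroup (Fin 5),
    x ^ 5 = 1 → e * e = 1 → e * x = x * e → x = 1 ∨ e = 1 := by decide +kernel

theorem a5_closure {x y : alternatingGroup (Fin 5)} (hx : orderOf x = 5) (hy : orderOf y = 5)
    (hxy : x * y ≠ y * x) : Subgroup.closure {x, y} = ⊤ := by
  classical
  haveI : Fact (Nat.Prime 5) := ⟨by norm_num⟩
  set K := Subgroup.closure {x, y} with hK
  have hxK : x ∈ K := Subgroup.subset_closure (by simp)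
  have hyK : y ∈ K := Subgroup.subset_closure (by simp)
  have h60 : Nat.card (alternatingGroup (Fin 5)) = 60 := by
    rw [Nat.card_eq_fintype_card]; decide +kernel
  obtain ⟨P⟩ : Nonempty (Sylow 5 K) := inferInstance
  have h5 : 5 ∣ Nat.card K := by
    have := _root_.orderOf_dvd_natCard (⟨x, hxK⟩ : K)
    rwa [Subgroup.orderOf_mk, hx] at this
  have hcardP : Nat.card P = 5 := by
    have h1 := P.dvd_card_of_dvd_card h5
    obtain ⟨n, hn⟩ := IsPGroup.iff_card.1 P.2
    have h2 : Nat.card P ∣ 60 := h60 ▸ (Subgroup.card_subgroup_dvd_card _).trans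
      (Subgroup.card_subgroup_dvd_card K)
    rw [hn] at h1 h2 ⊢
    rcases n with _ | _ | n
    · norm_num at h1
    · norm_num
    · exfalso
      have : 25 ∣ 60 := (Dvd.intro_left (5 ^ n) (by rw [pow_add, pow_add]; ring)).trans h2
      norm_num at this
  have hne : Nat.card (Sylow 5 K) ≠ 1 := by
    intro h1
    haveI : Subsingleton (Sylow 5 K) := (Nat.card_eq_one_iff_unique.1 h1).1
    have hmem : ∀ z (hz : z ∈ K), orderOf z = 5 → (⟨z, hz⟩ : K) ∈ (P : Subgroup K) := by
      intro z hz ho
      have hp : IsPGroup 5 (Subgroup.zpowers (⟨z, hz⟩ : K)) :=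
        IsPGroup.of_card (n := 1) (by rw [Nat.card_zpowers, Subgroup.orderOf_mk, ho, pow_one])
      obtain ⟨Q, hQ⟩ := hp.exists_le_sylow
      rw [Subsingleton.elim P Q]
      exact hQ (Subgroup.mem_zpowers _)
    haveI : IsCyclic (P : Subgroup K) := isCyclic_of_prime_card hcardP
    obtain ⟨g, hg⟩ := IsCyclic.exists_generator (α := (P : Subgroup K))
    obtain ⟨a, ha⟩ := hg ⟨_, hmem x hxK hx⟩
    obtain ⟨b, hb⟩ := hg ⟨_, hmem y hyK hy⟩
    apply hxy
    have hc : (⟨_, hmem x hxK hx⟩ : (P : Subgroup K)) * ⟨_, hmem y hyK hy⟩ =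
        ⟨_, hmem y hyK hy⟩ * ⟨_, hmem x hxK hx⟩ := by
      rw [← ha, ← hb]
      exact ((Commute.refl g).zpow_zpow a b).eq
    exact congrArg (fun t : (P : Subgroup K) => ((t : K) : alternatingGroup (Fin 5))) hc
  have hmod : Nat.card (Sylow 5 K) % 5 = 1 := by
    have := card_sylow_modEq_one 5 K
    rw [Nat.ModEq] at this
    exact this
  have hdvd : Nat.card (Sylow 5 K) ∣ (P : Subgroup K).index := P.card_dvd_index
  have hidx : (P : Subgroup K).index * 5 = Nat.card K := by
    have := (P : Subgroup K).index_mul_card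
    rwa [hcardP] at this
  have hpos : 0 < (P : Subgroup K).index := Nat.pos_of_ne_zero Subgroup.index_ne_zero_of_finite
  have h30 : 30 ≤ Nat.card K := by
    have := Nat.le_of_dvd hpos hdvd
    omega
  have hKi : K.index ≤ 2 := by
    have h1 := K.index_mul_card
    rw [h60] at h1
    by_contra hc
    have : 3 * 30 ≤ K.index * Nat.card K := Nat.mul_le_mul (by omega) h30
    omega
  have hnorm : K.Normal := by
    have h0 : 0 < K.index := Nat.pos_of_ne_zero Subgroup.index_ne_zero_of_finite
    rcases (by omega : K.index = 1 ∨ K.index = 2) with h | h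
    · rw [Subgroup.index_eq_one.1 h]; infer_instance
    · exact Subgroup.normal_of_index_eq_two h
  haveI := (alternatingGroup.isSimpleGroup (α := Fin 5) (by simp))
  rcases hnorm.eq_bot_or_eq_top with h | h
  · rw [h, Subgroup.mem_bot] at hxK
    rw [hxK, orderOf_one] at hx
    norm_num at hx
  · exact h

/-! ### Dickson -/

variable {F : Type*} [Field F] [Fintype F]

theorem subfield_top (hp : (Fintype.card F).Prime) (F₀ : Subfield F) : F₀ = ⊤ := by
  classical
  obtain ⟨r, hr, hc⟩ := Dickson.card_subfield_pow F₀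
  refine (Dickson.subfield_eq_top_iff F₀).2 ?_
  have h1 : r = 1 := by
    have hnp : (Nat.card F₀ ^ r).Prime := hc ▸ hp
    exact Nat.Prime.eq_one_of_pow hnp
  rw [hc, h1, pow_one]

theorem subPGL_top [DecidableEq F] :
    Dickson.subPGL (⊤ : Subfield F) =
      ProjGenLinGroup.map (Subfield.topEquiv (K := F)).toRingHom := rfl

/-- A subgroup of `PGL(2, p)`, sorted. -/
theorem sort_subgroup [DecidableEq F] (hp : (Fintype.card F).Prime) (h7 : 7 ≤ Fintype.card F)
    (H : Subgroup PGL(2, F)) :
    (¬ Fintype.card F ∣ Nat.card H ∧ (IsCyclic H ∨ (∃ n, Nonempty (H ≃* DihedralGroup n)) ∨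
      Nat.card H = 12 ∨ Nat.card H = 24 ∨ Nonempty (H ≃* alternatingGroup (Fin 5)))) ∨
    (Fintype.card F ∣ Nat.card H ∧ ((∃ x : OnePoint F, ∀ g ∈ H, g • x = x) ∨ Dickson.lsub F ≤ H)) := by
  classical
  haveI : Fact (Fintype.card F).Prime := ⟨hp⟩
  haveI : CharP F (Fintype.card F) := charP_of_card_eq_prime rfl
  have hsmall : ∀ m, Nat.card H = m → (m = 12 ∨ m = 24 ∨ m = 60) →
      ¬ Fintype.card F ∣ Nat.card H := by
    intro m hm h hd
    rw [hm] at hd
    have hle := Nat.le_of_dvd (by omega) hd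
    rcases h with rfl | rfl | rfl
    all_goals
      generalize hq : Fintype.card F = q at *
      interval_cases q <;> first | omega | norm_num at hp
  rcases Dickson.classifyF (K := AlgebraicClosure F) (p := Fintype.card F) H with
    ⟨a, b, m, hnd, hc, -, -, -⟩ | ⟨a, b, m, n, -, -, hn, hpn, -, hcard, hiso⟩ | ⟨x, hx, hd⟩ |
    ⟨-, hcard, -⟩ | ⟨-, hcard, -⟩ | ⟨-, hcard, hiso⟩ | ⟨F₀, h, -, he⟩ | ⟨F₀, h, -, -, he⟩
  · exact Or.inl ⟨hnd, Or.inl hc⟩
  · refine Or.inl ⟨fun hd => ?_, Or.inr (Or.inl ⟨n, hiso⟩)⟩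
    rw [hcard] at hd
    rcases (Nat.Prime.dvd_mul hp).1 hd with h2 | h2
    · have := Nat.le_of_dvd two_pos h2; omega
    · exact hpn h2
  · exact Or.inr ⟨hd, Or.inl ⟨x, hx⟩⟩
  · exact Or.inl ⟨hsmall _ hcard (Or.inl rfl), by tauto⟩
  · exact Or.inl ⟨hsmall _ hcard (Or.inr (Or.inl rfl)), by tauto⟩
  · exact Or.inl ⟨hsmall _ hcard (Or.inr (Or.inr rfl)), by tauto⟩
  · obtain rfl := subfield_top hp F₀
    have hH : H = ⊤ := by
      refine Subgroup.eq_top_of_card_eq _ ?_
      rw [Nat.card_congr (H.equivMapOfInjective (MulAut.conj h⁻¹).toMonoidHom (MulAut.conj h⁻¹).injective).toEquiv, he,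
        Dickson.card_subPGL_range, Dickson.card_pgl, Nat.card_congr Subfield.topEquiv.toEquiv,
        Nat.card_eq_fintype_card]
    refine Or.inr ⟨?_, Or.inr (hH ▸ le_top)⟩
    rw [hH, Subgroup.card_top, Dickson.card_pgl]
    exact Dvd.dvd.mul_right (Dvd.intro _ rfl) _
  · obtain rfl := subfield_top hp F₀
    rw [Dickson.range_subPSL, subPGL_top, Dickson.map_lsub_eq] at he
    have hH : H = Dickson.lsub F := by
      rw [← Dickson.map_conj_lsub h⁻¹] at he
      exact Subgroup.map_injective (MulAut.conj h⁻¹).injective he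
    refine Or.inr ⟨?_, Or.inr hH.ge⟩
    have h1 := Dickson.card_lsub_mul (F := F)
    have hcop : (Fintype.card F).Coprime (Nat.gcd 2 (Fintype.card F - 1)) :=
      (hp.coprime_iff_not_dvd).2 fun hd => by
        have := Nat.le_of_dvd two_pos (hd.trans (Nat.gcd_dvd_left _ _))
        omega
    rw [hH]
    exact hcop.dvd_of_dvd_mul_left (h1 ▸ Dvd.dvd.mul_right (Dvd.intro _ rfl) _)

variable [DecidableEq F]

/-- Two fixed lines exchanged: no common fixed point. -/
theorem no_fixed_point {D W : GL (Fin 2) F} {a b c d : F}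
    (hD : (D : Matrix (Fin 2) (Fin 2) F) = !![a, 0; 0, b]) (hab : a ≠ b)
    (hW : (W : Matrix (Fin 2) (Fin 2) F) = !![0, c; d, 0]) (x : OnePoint F)
    (h1 : ProjGenLinGroup.mk D • x = x) (h2 : ProjGenLinGroup.mk W • x = x) : False := by
  have hdet := D.det_ne_zero
  rw [hD] at hdet
  simp [det_fin_two_of] at hdet
  have hdetW := W.det_ne_zero
  rw [hW] at hdetW
  simp [det_fin_two_of] at hdetW
  rw [ProjGenLinGroup.mk_smul] at h1 h2
  induction x using OnePoint.rec with
  | infty =>
    rw [OnePoint.smul_infty_eq_self_iff, hW] at h2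
    simp at h2
    exact hdetW.2 h2
  | coe k =>
    rw [OnePoint.smul_some_eq_ite, hD] at h1
    simp [hdet.2] at h1
    have hk : k = 0 := by
      by_contra hk
      field_simp at h1
      exact hab ((div_eq_one_iff_eq hdet.2).1 h1)
    subst hk
    rw [OnePoint.smul_some_eq_ite, hW] at h2
    simp at h2

/-- An order divisible by `p` and no common fixed point force `L`. -/
theorem lsub_le (hp : (Fintype.card F).Prime) (h7 : 7 ≤ Fintype.card F) {H : Subgroup PGL(2, F)}
    (hd : Fintype.card F ∣ Nat.card H) (hfix : ¬ ∃ x : OnePoint F, ∀ g ∈ H, g • x = x) :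
    Dickson.lsub F ≤ H := by
  rcases sort_subgroup hp h7 H with ⟨h, -⟩ | ⟨-, h | h⟩
  · exact absurd hd h
  · exact absurd h hfix
  · exact h

/-- The group `L` is simple. -/
theorem isSimpleGroup_lsub (h7 : 7 ≤ Fintype.card F) : IsSimpleGroup (Dickson.lsub F) := by
  haveI := Linear.isSimpleGroup_PSL_fin (F := F) 2 le_rfl fun _ => by
    rw [Nat.card_eq_fintype_card]; omega
  exact (Dickson.pslEquiv (F := F)).symm.isSimpleGroup

theorem not_twelve_five {G : Type*} [Group G] (x : G) (hx : orderOf x = 5)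
    (h : Nat.card G = 12 ∨ Nat.card G = 24) : False := by
  have h5 : orderOf x ∣ Nat.card G := _root_.orderOf_dvd_natCard x
  rw [hx] at h5
  rcases h with h | h <;> rw [h] at h5 <;> norm_num at h5

/-- Elements of order five of a dihedral group are rotations. -/
theorem dihedral_five {n : ℕ} {x : DihedralGroup n} (hx : orderOf x = 5) :
    ∃ i, x = DihedralGroup.r i := by
  rcases x with i | i
  · exact ⟨i, rfl⟩
  · rw [DihedralGroup.orderOf_sr] at hx; omega

/-- A subgroup of order prime to `p`: the centraliser of an element inverting one of order five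
has exponent two. -/
theorem sq_eq_one_of_rot (hp : (Fintype.card F).Prime) (h7 : 7 ≤ Fintype.card F)
    {H : Subgroup PGL(2, F)} (hnd : ¬ Fintype.card F ∣ Nat.card H) {x s g : PGL(2, F)}
    (hx : x ∈ H) (hs : s ∈ H) (hg : g ∈ H) (ho : orderOf x = 5) (hs2 : s * s = 1)
    (hinv : s * x * s⁻¹ = x⁻¹) (hgs : g * s = s * g) : g * g = 1 := by
  classical
  have key : ∀ (X S G : H), orderOf X = 5 → S * S = 1 → S * X * S⁻¹ = X⁻¹ → G * S = S * G →
      G * G = 1 := by
    intro X S G hX hS hi hc
    have hXX : X * X ≠ 1 := fun h => by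
      have := orderOf_dvd_of_pow_eq_one (show X ^ 2 = 1 by rw [sq, h])
      rw [hX] at this; norm_num at this
    have hS1 : S ≠ 1 := by
      intro h
      rw [h, one_mul, inv_one, mul_one] at hi
      exact hXX (by nth_rw 2 [hi]; exact mul_inv_cancel X)
    rcases sort_subgroup hp h7 H with ⟨-, hc1 | ⟨n, ⟨e⟩⟩ | h12 | h24 | ⟨⟨e⟩⟩⟩ | ⟨h, -⟩
    · obtain ⟨z, hz⟩ := hc1.exists_generator
      obtain ⟨a, rfl⟩ := hz X
      simp only at hi hXX
      obtain ⟨b, rfl⟩ := hz S
      simp only at hi ⊢
      rw [((Commute.refl z).zpow_zpow b a).eq, mul_inv_cancel_right] at hi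
      exact absurd (by nth_rw 2 [hi]; exact mul_inv_cancel _) hXX
    · obtain ⟨i, hXi⟩ := dihedral_five ((e.orderOf_eq X).trans hX)
      have hi' := congrArg e hi
      have hc' := congrArg e hc
      simp only [map_mul, map_inv] at hi' hc'
      apply e.injective
      rw [map_mul, map_one]
      rcases hSj : e S with j | j
      · exfalso
        rw [hXi, hSj] at hi'
        simp at hi'
        refine hXX (e.injective ?_)
        rw [map_mul, map_one, hXi, DihedralGroup.r_mul_r, DihedralGroup.one_def]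
        congr 1
        linear_combination hi'
      · rcases hGk : e G with k | k
        · rw [hGk, hSj] at hc'
          simp at hc'
          rw [DihedralGroup.r_mul_r, DihedralGroup.one_def]
          congr 1
          linear_combination -hc'
        · simp
    · exact (not_twelve_five X hX (Or.inl h12)).elim
    · exact (not_twelve_five X hX (Or.inr h24)).elim
    · apply e.injective
      rw [map_mul, map_one]
      refine (a5_centraliser_involution (e S) (e G) ?_ ?_).resolve_left ?_
      · rw [← map_mul, hc, map_mul]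
      · rw [← map_mul, hS, map_one]
      · simpa using hS1
    · exact absurd h hnd
  exact congrArg Subtype.val (key ⟨x, hx⟩ ⟨s, hs⟩ ⟨g, hg⟩ (by rw [Subgroup.orderOf_mk]; exact ho)
    (Subtype.ext hs2) (Subtype.ext hinv) (Subtype.ext hgs))

/-- A subgroup of order prime to `p` with two noncommuting elements of order five. -/
theorem two_fives (hp : (Fintype.card F).Prime) (h7 : 7 ≤ Fintype.card F)
    {H : Subgroup PGL(2, F)} (hnd : ¬ Fintype.card F ∣ Nat.card H) {x y : PGL(2, F)}
    (hx : x ∈ H) (hy : y ∈ H) (hox : orderOf x = 5) (hoy : orderOf y = 5)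
    (hxy : x * y ≠ y * x) :
    Nat.card H = 60 ∧ Subgroup.closure {x, y} = H ∧ IsSimpleGroup H ∧
      ∀ e ∈ H, e * e = 1 → e * x = x * e → e = 1 := by
  classical
  set X : H := ⟨x, hx⟩ with hXdef
  set Y : H := ⟨y, hy⟩ with hYdef
  have hX : orderOf X = 5 := by rw [hXdef, Subgroup.orderOf_mk]; exact hox
  have hY : orderOf Y = 5 := by rw [hYdef, Subgroup.orderOf_mk]; exact hoy
  have hXY : X * Y ≠ Y * X := fun h => hxy (congrArg Subtype.val h)
  rcases sort_subgroup hp h7 H with ⟨-, hc1 | ⟨n, ⟨e⟩⟩ | h12 | h24 | ⟨⟨e⟩⟩⟩ | ⟨h, -⟩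
  · exfalso
    obtain ⟨z, hz⟩ := hc1.exists_generator
    obtain ⟨a, ha⟩ := hz X
    obtain ⟨b, hb⟩ := hz Y
    rw [← ha, ← hb] at hXY
    exact hXY ((Commute.refl z).zpow_zpow a b).eq
  · exfalso
    obtain ⟨i, hi⟩ := dihedral_five ((e.orderOf_eq X).trans hX)
    obtain ⟨j, hj⟩ := dihedral_five ((e.orderOf_eq Y).trans hY)
    apply hXY
    apply e.injective
    rw [map_mul, map_mul, hi, hj, DihedralGroup.r_mul_r, DihedralGroup.r_mul_r, add_comm]
  · exact (not_twelve_five X hX (Or.inl h12)).elim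
  · exact (not_twelve_five X hX (Or.inr h24)).elim
  · haveI := (alternatingGroup.isSimpleGroup (α := Fin 5) (by simp))
    have hA := a5_closure ((e.orderOf_eq X).trans hX) ((e.orderOf_eq Y).trans hY)
      (by rw [← map_mul, ← map_mul]; exact fun h => hXY (e.injective h))
    refine ⟨?_, ?_, e.isSimpleGroup, ?_⟩
    · rw [Nat.card_congr e.toEquiv, Nat.card_eq_fintype_card]; decide +kernel
    · refine le_antisymm ((Subgroup.closure_le _).2 (by simp [Set.insert_subset_iff, hx, hy])) ?_
      intro z hz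
      have hmem : e ⟨z, hz⟩ ∈ Subgroup.closure {e X, e Y} := hA ▸ Subgroup.mem_top _
      have : (Subgroup.closure {e X, e Y}).map (H.subtype.comp e.symm.toMonoidHom) =
          Subgroup.closure {x, y} := by
        rw [MonoidHom.map_closure, Set.image_pair]
        simp [hXdef, hYdef]
      rw [← this]
      exact ⟨_, hmem, by simp⟩
    · intro g hg hgg hgx
      rcases a5_centraliser_five (e X) (e ⟨g, hg⟩) (by
          rw [← map_pow, show X ^ 5 = 1 by rw [← hX, pow_orderOf_eq_one], map_one]) (by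
          rw [← map_mul, show (⟨g, hg⟩ : H) * ⟨g, hg⟩ = 1 from Subtype.ext hgg, map_one]) (by
          rw [← map_mul, ← map_mul, show (⟨g, hg⟩ : H) * X = X * ⟨g, hg⟩ from Subtype.ext hgx]) with
        h | h
      · rw [← map_one e, EmbeddingLike.apply_eq_iff_eq] at h
        rw [h, orderOf_one] at hX
        norm_num at hX
      · exact congrArg Subtype.val (e.injective (h.trans (map_one e).symm))
  · exact absurd h hnd

end Cfsg.Agent.MaxSub.CSixFive.Plane
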