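import Cfsg.Agent.MaxSub.CSixFive.Normal
import Cfsg.Agent.RootSub.Transv.Classify
import Cfsg.Agent.GeoClasses.TransvGen

/-!
An overgroup of `5^{1+2}` over a prime field with a transvection contains `SL₅`.
-/

set_option autoImplicit false
set_option linter.unusedSectionVars false
set_option linter.style.haveILetI false

namespace Cfsg.Agent.MaxSub.CSixFive

open Matrix Cfsg.Geo Cfsg.Agent.RootSub.Transv
open scoped MatrixGroups Fin.CommRing Fin.NatCast

variable {F : Type*} [Field F]

/-- No element is a transvection. -/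
def NT (M : Subgroup (GL (Fin 5) F)) : Prop :=
  ∀ g ∈ M, ∀ u a : Fin 5 → F, (g : Matrix (Fin 5) (Fin 5) F) = 1 + vecMulVec u a → g = 1

/-- `GL₅` as linear automorphisms. -/
noncomputable def toEquiv : GL (Fin 5) F ≃* ((Fin 5 → F) ≃ₗ[F] (Fin 5 → F)) :=
  (Matrix.GeneralLinearGroup.toLin).trans (LinearMap.GeneralLinearGroup.generalLinearEquiv F _)

theorem toEquiv_apply (g : GL (Fin 5) F) (v : Fin 5 → F) :
    toEquiv g v = (g : Matrix (Fin 5) (Fin 5) F) *ᵥ v := rfl

namespace Root5

variable (R : Root5 F)

/-- A subspace invariant under `X` and `A` is trivial. -/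
theorem invariant_trivial {M : Subgroup (GL (Fin 5) F)} (hX : R.gX ∈ M) (hA : gA ∈ M)
    (U : Submodule F (Fin 5 → F))
    (hU : ∀ g ∈ M, ∀ u ∈ U, (g : Matrix (Fin 5) (Fin 5) F) *ᵥ u ∈ U) : U = ⊥ ∨ U = ⊤ := by
  classical
  by_cases h0 : U = ⊥
  · exact Or.inl h0
  refine Or.inr ?_
  obtain ⟨v, hv, hv0⟩ := (Submodule.ne_bot_iff U).1 h0
  obtain ⟨k, hk⟩ := Function.ne_iff.1 hv0
  have hdiag : ∀ (n : ℕ), (fun i => R.e i ^ n * v i) ∈ U := by
    intro n
    induction n with
    | zero => simpa using hv
    | succ n ih =>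
      have := hU _ hX _ ih
      convert this using 1
      funext i
      rw [gX, R.val_dG, mulVec_diagonal, pow_succ]; ring
  have hsum : (∑ n : Fin 5, R.e (-(k * n)) • fun i => R.e i ^ (n : ℕ) * v i) ∈ U :=
    Submodule.sum_mem _ fun n _ => Submodule.smul_mem _ _ (hdiag _)
  have hek : Pi.single k (1 : F) ∈ U := by
    have he : (∑ n : Fin 5, R.e (-(k * n)) • fun i => R.e i ^ (n : ℕ) * v i) =
        (5 * v k) • Pi.single k (1 : F) := by
      funext i
      simp only [Finset.sum_apply, Pi.smul_apply, smul_eq_mul]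
      have : ∀ n : Fin 5, R.e (-(k * n)) * (R.e i ^ (n : ℕ) * v i) = R.e ((i - k) * n) * v i := by
        intro n
        rw [← mul_assoc, R.e_mul, Fin.cast_val_eq_self, ← R.e_add]
        congr 2; ring
      simp only [this, ← Finset.sum_mul]
      by_cases hik : i = k
      · subst hik; simp [R.e_zero]
      · rw [R.e_sum (sub_ne_zero.2 hik)]; simp [hik]
    have h5 : 5 * v k ≠ 0 := mul_ne_zero R.five (by simpa using hk)
    have := U.smul_mem (5 * v k)⁻¹ (he ▸ hsum)
    rwa [smul_smul, inv_mul_cancel₀ h5, one_smul] at this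
  have hall : ∀ n : ℕ, Pi.single (k + (n : Fin 5)) (1 : F) ∈ U := by
    intro n
    induction n with
    | zero => simpa using hek
    | succ n ih =>
      have := hU _ hA _ ih
      convert this using 1
      funext i
      simp [mulVec_single, val_gA, Pi.single_apply, add_assoc]
  refine Submodule.eq_top_iff'.2 fun w => ?_
  rw [← Finset.univ_sum_single w]
  refine Submodule.sum_mem _ fun i _ => ?_
  have := U.smul_mem (w i) (hall ((i - k : Fin 5) : ℕ))
  rwa [Fin.cast_val_eq_self, add_sub_cancel, ← Pi.single_smul', smul_eq_mul, mul_one] at this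

end Root5

/-- An alternating form in odd dimension degenerates. -/
theorem no_alt (h2 : (2 : F) ≠ 0) (B : LinearMap.BilinForm F (Fin 5 → F)) (hA : B.IsAlt)
    (hB : B.Nondegenerate) : False := by
  have hdet := (LinearMap.BilinForm.nondegenerate_iff_det_ne_zero (Pi.basisFun F (Fin 5))).1 hB
  apply hdet
  set A := LinearMap.BilinForm.toMatrix (Pi.basisFun F (Fin 5)) B with hAdef
  have hskew : Aᵀ = -A := by
    ext i j
    rw [transpose_apply, Matrix.neg_apply, hAdef, LinearMap.BilinForm.toMatrix_apply,
      LinearMap.BilinForm.toMatrix_apply]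
    exact (hA.neg_eq _ _).symm
  have h := congrArg Matrix.det hskew
  rw [det_transpose, det_neg, Fintype.card_fin] at h
  have : (2 : F) * A.det = 0 := by linear_combination h
  exact (mul_eq_zero.1 this).resolve_left h2

variable [Fintype F]

/-- An overgroup of the standard group with a transvection contains `SL₅(p)`. -/
theorem sl_le_of_not_nt (R : Root5 F) (hp : (Fintype.card F).Prime) {M : Subgroup (GL (Fin 5) F)}
    (hX : R.gX ∈ M) (hA : gA ∈ M) (hM : M ≤ specialLinear (Fin 5) F) (hnt : ¬ NT M) :
    specialLinear (Fin 5) F ≤ M := by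
  classical
  unfold NT at hnt
  push Not at hnt
  obtain ⟨g, hg, u, a, hga, hg1⟩ := hnt
  have hu : u ≠ 0 := fun h => hg1 (Units.ext (by rw [hga, h, zero_vecMulVec, add_zero, Units.val_one]))
  have ha : a ≠ 0 := fun h => hg1 (Units.ext (by rw [hga, h, vecMulVec_zero, add_zero, Units.val_one]))
  have hau : a ⬝ᵥ u = 0 := by
    have := GeoClasses.mem_specialLinear_iff.1 (hM hg)
    rw [hga, vecMulVec_eq Unit, det_one_add_replicateCol_mul_replicateRow] at this
    linear_combination this
  set H := M.map toEquiv.toMonoidHom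
  have hsc : ScalarClosed H := by
    rintro x φ ⟨h0, t, ht, htv⟩ c
    have hc : ∃ n : ℕ, (n : F) = c := by
      obtain ⟨q, hq⟩ := CharP.exists F
      obtain ⟨e, hqp, hcard⟩ := FiniteField.card F q
      have he : (e : ℕ) = 1 := by
        by_contra hne
        exact Nat.Prime.not_prime_pow' (n := (e : ℕ)) hne (hcard ▸ hp)
      rw [he, pow_one] at hcard
      haveI : Fact q.Prime := ⟨hqp⟩
      have hb : Function.Bijective (ZMod.castHom (dvd_refl q) F) :=
        (Fintype.bijective_iff_injective_and_card _).2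
          ⟨RingHom.injective _, by rw [ZMod.card, hcard]⟩
      obtain ⟨z, rfl⟩ := hb.2 c
      exact ⟨z.val, by rw [← map_natCast (ZMod.castHom (dvd_refl q) F), ZMod.natCast_zmod_val]⟩
    obtain ⟨n, rfl⟩ := hc
    refine ⟨by simp [h0], t ^ n, pow_mem ht n, fun v => ?_⟩
    induction n generalizing v with
    | zero => simp
    | succ n ih =>
      rw [pow_succ', LinearEquiv.mul_apply, ih, htv]
      simp [h0, add_smul]
      abel
  have hirr : TvIrred H := by
    by_contra hcon
    unfold TvIrred at hcon
    push Not at hcon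
    obtain ⟨U₀, hU₀, hU₀b, hU₀t⟩ := hcon
    let Inv : Submodule F (Fin 5 → F) → Prop := fun U =>
      (∀ x φ, IsTv H x φ → ∀ v ∈ U, φ v • x ∈ U) ∧ U ≠ ⊥
    obtain ⟨W, hWle, hW⟩ := Set.Finite.exists_le_minimal (Set.toFinite {U | Inv U}) (a := U₀)
      ⟨hU₀, hU₀b⟩
    have conjInv : ∀ k ∈ M, ∀ {U}, Inv U → Inv (U.map (toEquiv k).toLinearMap) := by
      rintro k hk U ⟨hU, hUb⟩
      refine ⟨?_, by simpa [Submodule.map_eq_bot_iff] using hUb⟩
      rintro x φ hx _ ⟨v, hv, rfl⟩
      have hk' : (toEquiv k)⁻¹ ∈ H := inv_mem (Subgroup.mem_map_of_mem _ hk)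
      have h2 := hU _ _ (hx.conj hk') v hv
      refine ⟨_, h2, ?_⟩
      simp only [map_smul, LinearMap.comp_apply, LinearEquiv.coe_coe]
      rw [show ((toEquiv k)⁻¹).symm v = toEquiv k v from rfl]
      congr 1
      exact (toEquiv k).apply_symm_apply x
    have hd : ∀ k : GL (Fin 5) F,
        Module.finrank F (W.map (toEquiv k).toLinearMap) = Module.finrank F W := fun k =>
      LinearEquiv.finrank_map_eq _ _
    -- a translate outside an invariant subspace meets it trivially
    have indep : ∀ {S : Submodule F (Fin 5 → F)},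
        (∀ x φ, IsTv H x φ → ∀ v ∈ S, φ v • x ∈ S) → S ≠ ⊤ →
        ∃ k ∈ M, W.map (toEquiv k).toLinearMap ⊓ S = ⊥ := by
      intro S hS hStop
      obtain ⟨k, hk, hne⟩ : ∃ k ∈ M, ¬ W.map (toEquiv k).toLinearMap ≤ S := by
        by_contra hcon
        push Not at hcon
        set T := ⨆ k : M, W.map (toEquiv (k : GL (Fin 5) F)).toLinearMap
        have hT : ∀ g ∈ M, ∀ v ∈ T, (g : Matrix (Fin 5) (Fin 5) F) *ᵥ v ∈ T := by
          intro g hg v hv
          have hle : T.map (toEquiv g).toLinearMap ≤ T := by
            rw [Submodule.map_iSup]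
            refine iSup_le fun k => le_trans (le_of_eq ?_) (le_iSup _ (⟨g, hg⟩ * k : M))
            rw [← Submodule.map_comp, Subgroup.coe_mul, map_mul]; rfl
          exact hle ⟨v, hv, rfl⟩
        rcases R.invariant_trivial hX hA T hT with h | h
        · apply hW.prop.2
          rw [eq_bot_iff, ← h]
          refine le_trans (le_of_eq ?_) (le_iSup _ (1 : M))
          rw [OneMemClass.coe_one, map_one]; exact (Submodule.map_id W).symm
        · exact hStop (top_le_iff.1 (h ▸ iSup_le fun k => hcon k k.2))
      refine ⟨k, hk, ?_⟩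
      by_contra hb
      set P := W.map (toEquiv k).toLinearMap ⊓ S
      have hP : Inv P := ⟨fun x φ hx v hv => ⟨(conjInv k hk hW.prop).1 x φ hx v hv.1, hS x φ hx v hv.2⟩, hb⟩
      have hP' := conjInv k⁻¹ (inv_mem hk) hP
      have hle : P.map (toEquiv k⁻¹).toLinearMap ≤ W := by
        rintro _ ⟨v, hv, rfl⟩
        obtain ⟨w, hw, rfl⟩ := hv.1
        rw [LinearEquiv.coe_coe, LinearEquiv.coe_coe, ← LinearEquiv.mul_apply, ← map_mul,
          inv_mul_cancel, map_one]
        exact hw
      have := hW.eq_of_le hP' hle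
      apply hne
      have h3 : Module.finrank F P = Module.finrank F W := by
        exact (LinearEquiv.finrank_map_eq (toEquiv k⁻¹) P).symm.trans
          (congrArg (fun Q : Submodule F (Fin 5 → F) => Module.finrank F Q) this)
      have h4 : P = W.map (toEquiv k).toLinearMap :=
        Submodule.eq_of_le_of_finrank_le inf_le_left (by rw [h3, hd])
      exact h4 ▸ inf_le_right
    have hsupInv : ∀ {S S' : Submodule F (Fin 5 → F)},
        (∀ x φ, IsTv H x φ → ∀ v ∈ S, φ v • x ∈ S) →
        (∀ x φ, IsTv H x φ → ∀ v ∈ S', φ v • x ∈ S') →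
        ∀ x φ, IsTv H x φ → ∀ v ∈ S ⊔ S', φ v • x ∈ S ⊔ S' := by
      intro S S' h h' x φ hx v hv
      obtain ⟨y, hy, z, hz, rfl⟩ := Submodule.mem_sup.1 hv
      rw [map_add, add_smul]
      exact Submodule.add_mem_sup (h x φ hx y hy) (h' x φ hx z hz)
    have hWtop : W ≠ ⊤ := fun h => hU₀t (top_le_iff.1 (h ▸ hWle))
    have h5 : Module.finrank F (Fin 5 → F) = 5 := Module.finrank_fin_fun F
    have hd1 : 1 ≤ Module.finrank F W :=
      Nat.one_le_iff_ne_zero.2 fun h => hW.prop.2 (Submodule.finrank_eq_zero.1 h)
    by_cases hone : Module.finrank F W = 1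
    · -- every transvection fixes every translate of the line
      obtain ⟨w, hw, hw0⟩ := (Submodule.ne_bot_iff W).1 hW.prop.2
      have hWw : W = F ∙ w := (Submodule.eq_of_le_of_finrank_le
        ((Submodule.span_singleton_le_iff_mem _ _).2 hw) (by rw [hone, finrank_span_singleton hw0])).symm
      set x₁ : Fin 5 → F := u
      have hg' : toEquiv g ∈ H := Subgroup.mem_map_of_mem _ hg
      set φ₁ : Module.Dual F (Fin 5 → F) := dotProductBilin F F a
      have htv : IsTv H x₁ φ₁ := ⟨hau, _, hg', fun v => by
        rw [toEquiv_apply, hga, add_mulVec, one_mulVec, vecMulVec_mulVec, op_smul_eq_smul]; rfl⟩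
      have hker : ∀ k ∈ M, φ₁ (toEquiv k w) = 0 := by
        intro k hk
        by_contra hne
        have hm := (conjInv k hk hW.prop).1 _ _ htv _ (Submodule.mem_map_of_mem hw)
        rw [hWw, Submodule.map_span, Set.image_singleton, Submodule.mem_span_singleton] at hm
        obtain ⟨c, hc⟩ := hm
        have := congrArg φ₁ hc
        simp only [map_smul, smul_eq_mul, LinearEquiv.coe_coe] at this
        rw [show φ₁ x₁ = 0 from hau, mul_zero] at this
        have hc0 : c = 0 := (mul_eq_zero.1 this).resolve_right hne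
        rw [hc0, zero_smul] at hc
        exact hu ((smul_eq_zero.1 hc.symm).resolve_left hne)
      obtain ⟨k, hk, hk'⟩ := indep (S := LinearMap.ker φ₁)
        (fun x φ hx v hv => by
          rw [LinearMap.mem_ker, map_smul]
          by_cases h : φ₁ x = 0
          · rw [h, smul_zero]
          · exfalso
            refine h ?_
            -- the kernel contains a spanning set
            have : LinearMap.ker φ₁ = ⊤ := by
              rcases R.invariant_trivial hX hA (⨅ k : M, (LinearMap.ker φ₁).comap (toEquiv (k : GL (Fin 5) F)).toLinearMap)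
                (fun g hg v hv => by
                  simp only [Submodule.mem_iInf, Submodule.mem_comap] at hv ⊢
                  intro k
                  have := hv (k * ⟨g, hg⟩)
                  rwa [Subgroup.coe_mul, map_mul] at this) with hb | ht
              · exfalso
                apply hw0
                rw [← Submodule.mem_bot F, ← hb]
                simp only [Submodule.mem_iInf, Submodule.mem_comap]
                exact fun k => hker k k.2
              · refine top_le_iff.1 (ht ▸ iInf_le_of_le (1 : M) ?_)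
                rw [OneMemClass.coe_one, map_one]; exact le_rfl
            exact LinearMap.mem_ker.1 (this ▸ Submodule.mem_top))
        (fun h => ha (dotProduct_eq_zero _ fun v => by
          have : v ∈ LinearMap.ker φ₁ := h ▸ Submodule.mem_top
          simpa [φ₁] using this))
      apply hw0
      have : toEquiv k w ∈ W.map (toEquiv k).toLinearMap ⊓ LinearMap.ker φ₁ :=
        ⟨Submodule.mem_map_of_mem hw, LinearMap.mem_ker.2 (hker k hk)⟩
      rw [hk', Submodule.mem_bot] at this
      simpa using this
    · obtain ⟨k, hk, hk'⟩ := indep hW.prop.1 hWtop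
      have h1 := Submodule.finrank_sup_add_finrank_inf_eq (W.map (toEquiv k).toLinearMap) W
      rw [hk', finrank_bot, add_zero, hd] at h1
      have h2 := Submodule.finrank_le (W.map (toEquiv k).toLinearMap ⊔ W)
      rw [h5, h1] at h2
      by_cases htop : W.map (toEquiv k).toLinearMap ⊔ W = ⊤
      · rw [htop, finrank_top, h5] at h1; omega
      obtain ⟨l, hl, hl'⟩ := indep (hsupInv (conjInv k hk hW.prop).1 hW.prop.1) htop
      have h3 := Submodule.finrank_sup_add_finrank_inf_eq (W.map (toEquiv l).toLinearMap)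
        (W.map (toEquiv k).toLinearMap ⊔ W)
      rw [hl', finrank_bot, add_zero, hd, h1] at h3
      have h4 := Submodule.finrank_le
        (W.map (toEquiv l).toLinearMap ⊔ (W.map (toEquiv k).toLinearMap ⊔ W))
      omega
  have hg' : toEquiv g ∈ H := Subgroup.mem_map_of_mem _ hg
  have htv : IsTv H u (dotProductBilin F F a) := ⟨hau, _, hg', fun v => by
    rw [toEquiv_apply, hga, add_mulVec, one_mulVec, vecMulVec_mulVec, op_smul_eq_smul]; rfl⟩
  rcases classify hsc R.two hirr hu (fun h => ha (dotProduct_eq_zero _ fun v => by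
      simpa using LinearMap.congr_fun h v)) htv with hall | ⟨B, hA', hB', -⟩
  · refine GeoClasses.specialLinear_le_of_transv_mem fun φ w hw => ?_
    obtain ⟨-, t, ⟨k, hk, rfl⟩, htw⟩ := hall w φ hw
    suffices he : GeoClasses.transv φ w hw = k from he ▸ hk
    refine GeoClasses.gl_ext_mulVec fun v => ?_
    rw [GeoClasses.transv_mulVec]
    exact (htw v).symm
  · exact (no_alt R.two B hA' hB').elim

end Cfsg.Agent.MaxSub.CSixFive
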