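import Cfsg.Agent.MaxSub.CSixFive.Blocks
import Cfsg.Agent.MaxSub.CSixFive.Plane
import Cfsg.Agent.MaxSub.CSixFive.Transv

/-!
Without transvections, an element centralising `T` and `J` is monomial on each block.
-/

set_option autoImplicit false
set_option linter.unusedSectionVars false
set_option linter.style.haveILetI false

namespace Cfsg.Agent.MaxSub.CSixFive

open Matrix Cfsg.Geo Cfsg.Agent.MaxSub
open scoped MatrixGroups Fin.CommRing Fin.NatCast Cfsg.Agent.MaxSub.Dickson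

variable {F : Type*} [Field F] [Fintype F]

/-- An overgroup of the standard generators without transvections, over a prime field. -/
structure Hyp (R : Root5 F) (M : Subgroup (GL (Fin 5) F)) : Prop where
  prime : (Fintype.card F).Prime
  le : M ≤ specialLinear (Fin 5) F
  hX : R.gX ∈ M
  hA : gA ∈ M
  hJ : gJ ∈ M
  hT : R.gT ∈ M
  hS : gS ∈ M
  hU : R.gU ∈ M
  nt : NT M

/-- The upper unitriangular `2 × 2` matrix. -/
def u2 (a : F) : Matrix (Fin 2) (Fin 2) F := !![1, a; 0, 1]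

theorem u2_mul (a b : F) : u2 a * u2 b = u2 (a + b) := by
  ext i j; fin_cases i <;> fin_cases j <;> simp [u2, add_comm]

theorem u2_pow (a : F) (n : ℕ) : u2 a ^ n = u2 ((n : F) * a) := by
  induction n with
  | zero => ext i j; fin_cases i <;> fin_cases j <;> simp [u2]
  | succ n ih => rw [pow_succ, ih, u2_mul]; congr 1; push_cast; ring

namespace Root5

variable (R : Root5 F)

theorem five_dvd_card (R : Root5 F) : 5 ∣ Fintype.card F - 1 := by
  rw [← R.orderOf_ω]
  exact orderOf_dvd_of_pow_eq_one (FiniteField.pow_card_sub_one_eq_one _ R.ne_zero)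

theorem seven_le (R : Root5 F) (hp : (Fintype.card F).Prime) : 7 ≤ Fintype.card F := by
  by_contra h
  have h5 := R.five_dvd_card
  have := hp.two_le
  generalize hq : Fintype.card F = q at *
  interval_cases q <;> first | omega | norm_num at hp

theorem gJ_conj_gX : gJ * R.gX * gJ⁻¹ = R.gX⁻¹ := by
  refine mul_inv_eq_iff_eq_mul.2 (Units.ext (Matrix.ext fun i j => ?_))
  rw [gX, Units.val_mul, Units.val_mul, val_dG, val_dG_inv, mul_diagonal, diagonal_mul, val_gJ]
  by_cases h : i = -j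
  · rw [if_pos h, one_mul, mul_one, h, neg_neg]
  · rw [if_neg h, zero_mul, mul_zero]

end Root5

variable {R : Root5 F} {M : Subgroup (GL (Fin 5) F)}

/-- The exponent of `GL₂(p)` prime to `p`, congruent to one. -/
def pPrime (F : Type*) [Fintype F] : ℕ :=
  (Fintype.card F - 1) * (Fintype.card F - 1) * (Fintype.card F + 1)

theorem cast_pPrime : ((pPrime F : ℕ) : F) = 1 := by
  have h : 1 ≤ Fintype.card F := Fintype.card_pos
  rw [pPrime, Nat.cast_mul, Nat.cast_mul, Nat.cast_sub h, Nat.cast_add, FiniteField.cast_card_eq_zero]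
  simp

theorem scalar_pow_pPrime {c : F} (hc : c ≠ 0) : c ^ pPrime F = 1 := by
  rw [pPrime, mul_assoc, pow_mul, FiniteField.pow_card_sub_one_eq_one c hc, one_pow]

theorem pow_pPrime_of_smul_u2 {A : Matrix (Fin 2) (Fin 2) F} {c : F} (hc : c ≠ 0)
    (hA : A = c • u2 1) : A ^ pPrime F = u2 1 := by
  rw [hA, smul_pow, u2_pow, scalar_pow_pPrime hc, one_smul, cast_pPrime, one_mul]

theorem pow_p_pPrime (g : GL (Fin 2) F) : (g ^ pPrime F) ^ Fintype.card F = 1 := by
  classical
  rw [← pow_mul, ← pow_card_eq_one' (x := g), Linear.card_GL_two]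
  congr 1
  rw [pPrime]; ring

theorem exists_smul_of_mk_eq {A B : GL (Fin 2) F}
    (h : ProjGenLinGroup.mk A = ProjGenLinGroup.mk B) :
    ∃ c : F, c ≠ 0 ∧ (A : Matrix (Fin 2) (Fin 2) F) = c • (B : Matrix (Fin 2) (Fin 2) F) := by
  obtain ⟨u, hu⟩ := ProjGenLinGroup.mk_eq_mk_iff.1 h.symm
  refine ⟨u, u.ne_zero, ?_⟩
  rw [← hu, Units.val_mul, GeneralLinearGroup.coe_scalar]
  ext i j
  simp [Matrix.mul_apply, Matrix.diagonal, mul_comm]

theorem exists_smul_one_of_mk {A : GL (Fin 2) F} (h : ProjGenLinGroup.mk A = 1) :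
    ∃ c : F, c ≠ 0 ∧ (A : Matrix (Fin 2) (Fin 2) F) = c • 1 := by
  obtain ⟨c, hc, e⟩ := exists_smul_of_mk_eq (A := A) (B := 1) (by rw [h, map_one])
  exact ⟨c, hc, by rw [e, Units.val_one]⟩

theorem orderOf_mk_diag {D : GL (Fin 2) F} {a b : F}
    (hD : (D : Matrix (Fin 2) (Fin 2) F) = !![a, 0; 0, b]) (hab : a ≠ b) (ha : a ^ 5 = 1)
    (hb : b ^ 5 = 1) : orderOf (ProjGenLinGroup.mk D) = 5 := by
  haveI : Fact (Nat.Prime 5) := ⟨by norm_num⟩
  refine orderOf_eq_prime ?_ fun h => ?_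
  · rw [← map_pow, show D ^ 5 = 1 from Units.ext ?_, map_one]
    rw [Units.val_pow_eq_pow_val, hD, Units.val_one]
    have : (!![a, 0; 0, b] : Matrix (Fin 2) (Fin 2) F) = diagonal ![a, b] := by
      ext i j; fin_cases i <;> fin_cases j <;> simp
    rw [this, diagonal_pow, ← diagonal_one]
    congr 1; funext i; fin_cases i <;> simp [ha, hb]
  · obtain ⟨c, -, e⟩ := exists_smul_one_of_mk h
    rw [hD] at e
    have h0 := congrFun (congrFun e 0) 0
    have h1 := congrFun (congrFun e 1) 1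
    simp at h0 h1
    exact hab (h0.trans h1.symm)

/-- The upper unitriangular element of `L`. -/
def uGL (a : F) : GL (Fin 2) F :=
  Matrix.SpecialLinearGroup.toGL ⟨u2 a, by simp [u2, det_fin_two_of]⟩

theorem val_uGL (a : F) : (uGL a : Matrix (Fin 2) (Fin 2) F) = u2 a := rfl

theorem mk_uGL_mem (a : F) : ProjGenLinGroup.mk (uGL a) ∈ Dickson.lsub F := ⟨_, rfl⟩

/-- The lower unitriangular element of `L`. -/
def lGL : GL (Fin 2) F :=
  Matrix.SpecialLinearGroup.toGL ⟨!![1, 0; 1, 1], by simp [det_fin_two_of]⟩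

theorem val_lGL : ((lGL : GL (Fin 2) F) : Matrix (Fin 2) (Fin 2) F) = !![1, 0; 1, 1] := rfl

theorem mk_lGL_mem : ProjGenLinGroup.mk (lGL : GL (Fin 2) F) ∈ Dickson.lsub F := ⟨_, rfl⟩

theorem commute_of_mk_commute (h2 : (2 : F) ≠ 0) {A B : GL (Fin 2) F}
    (hB : (B : Matrix (Fin 2) (Fin 2) F).trace = 2)
    (h : ProjGenLinGroup.mk A * ProjGenLinGroup.mk B = ProjGenLinGroup.mk B * ProjGenLinGroup.mk A) :
    A * B = B * A := by
  rw [← map_mul, ← map_mul] at h
  obtain ⟨c, -, e⟩ := exists_smul_of_mk_eq h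
  have e' : ((A * B * A⁻¹ : GL (Fin 2) F) : Matrix (Fin 2) (Fin 2) F) = c • (B : Matrix (Fin 2) (Fin 2) F) := by
    rw [Units.val_mul, e, Units.val_mul, smul_mul_assoc, mul_assoc, A.mul_inv, mul_one]
  have htr := congrArg Matrix.trace e'
  rw [Units.val_mul, Units.val_mul, Matrix.trace_units_conj, Matrix.trace_smul, hB,
    smul_eq_mul] at htr
  have hc : c = 1 := mul_right_cancel₀ h2 (by linear_combination -htr)
  exact Units.ext (by rw [e, hc, one_smul])

theorem mk_eq_one_of_commute (h2 : (2 : F) ≠ 0) {A : GL (Fin 2) F}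
    (hu : ProjGenLinGroup.mk A * ProjGenLinGroup.mk (uGL 1) =
      ProjGenLinGroup.mk (uGL 1) * ProjGenLinGroup.mk A)
    (hl : ProjGenLinGroup.mk A * ProjGenLinGroup.mk lGL =
      ProjGenLinGroup.mk lGL * ProjGenLinGroup.mk A) :
    ProjGenLinGroup.mk A = 1 := by
  have e1 := congrArg Units.val (commute_of_mk_commute h2 (by
    simp [val_uGL, u2, trace_fin_two, one_add_one_eq_two]) hu)
  have e2 := congrArg Units.val (commute_of_mk_commute h2 (by
    simp [val_lGL, trace_fin_two, one_add_one_eq_two]) hl)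
  simp only [Units.val_mul] at e1 e2
  have a := congrFun (congrFun e1 0) 0
  have b := congrFun (congrFun e1 0) 1
  have c := congrFun (congrFun e2 0) 0
  simp [val_uGL, val_lGL, u2, Matrix.mul_apply] at a b c
  refine ProjGenLinGroup.mk_eq_one.2 (GeneralLinearGroup.mem_center_iff_val_eq_scalar.2 ?_)
  refine ⟨(A : Matrix (Fin 2) (Fin 2) F) 0 0, ?_⟩
  ext i j
  fin_cases i <;> fin_cases j <;> simp
  all_goals first
    | linear_combination c | linear_combination -c | linear_combination a | linear_combination -a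
    | linear_combination b - (0 : F) * c | linear_combination -b

/-- A subgroup normalised by a group containing `L` is trivial or contains `L`. -/
theorem lsub_le_of_normalised (h2 : (2 : F) ≠ 0) (h7 : 7 ≤ Fintype.card F) {P N : Subgroup PGL(2, F)}
    (hP : Dickson.lsub F ≤ P) (hN : ∀ g ∈ P, ∀ n ∈ N, g * n * g⁻¹ ∈ N) (hne : N ≠ ⊥) :
    Dickson.lsub F ≤ N := by
  classical
  haveI := Plane.isSimpleGroup_lsub (F := F) h7
  have hnorm : (N.subgroupOf (Dickson.lsub F)).Normal :=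
    ⟨fun n hn g => hN g (hP g.2) n hn⟩
  rcases hnorm.eq_bot_or_eq_top with h | h
  · exfalso
    rw [Subgroup.subgroupOf_eq_bot] at h
    apply hne
    rw [Subgroup.eq_bot_iff_forall]
    intro n hn
    have key : ∀ s ∈ Dickson.lsub F, n * s = s * n := by
      intro s hs
      have h1 : n * s * n⁻¹ * s⁻¹ ∈ N := by
        have := mul_mem hn (hN s (hP hs) n⁻¹ (inv_mem hn))
        simpa [mul_assoc] using this
      have h2 : n * s * n⁻¹ * s⁻¹ ∈ Dickson.lsub F :=
        mul_mem (Dickson.lsub_normal.conj_mem s hs n) (inv_mem hs)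
      have h3 : n * s * n⁻¹ * s⁻¹ = 1 := Subgroup.disjoint_def.1 h h1 h2
      exact mul_inv_eq_iff_eq_mul.1 (mul_inv_eq_one.1 h3)
    induction n using ProjGenLinGroup.induction_on with | mk A =>
    exact mk_eq_one_of_commute h2 (key _ (mk_uGL_mem 1)) (key _ mk_lGL_mem)
  · exact Subgroup.subgroupOf_eq_top.1 h

/-- A nilpotent `2 × 2` matrix squares to zero. -/
theorem sq_zero_of_pow_zero {N : Matrix (Fin 2) (Fin 2) F} {n : ℕ} (hn : N ^ n = 0) : N * N = 0 := by
  have hdet : N.det = 0 := by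
    have h := congrArg Matrix.det hn
    rw [det_pow] at h
    simp only [Matrix.det_zero] at h
    exact eq_zero_of_pow_eq_zero h
  have hch : N * N = N.trace • N := by
    rw [det_fin_two] at hdet
    ext i j
    fin_cases i <;> fin_cases j <;> simp [Matrix.mul_apply, trace_fin_two] <;>
      first | linear_combination -hdet | linear_combination (0 : F) * hdet
  by_cases ht : N.trace = 0
  · rw [hch, ht, zero_smul]
  · have hpow : ∀ m, N ^ (m + 1) = N.trace ^ m • N := by
      intro m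
      induction m with
      | zero => simp
      | succ m ih => rw [pow_succ, ih, smul_mul_assoc, hch, smul_smul, ← pow_succ]
    have hN : N = 0 := by
      have h0 : N ^ (n + 1) = 0 := by rw [pow_succ, hn, zero_mul]
      rw [hpow] at h0
      exact (smul_eq_zero.1 h0).resolve_left (pow_ne_zero _ ht)
    rw [hN, mul_zero]

namespace Root5

variable (R)

/-- The matrix of an element commuting with `T`. -/
theorem CT_matrix {g : GL (Fin 5) F} (hg : g ∈ R.CT) :
    let G := (g : Matrix (Fin 5) (Fin 5) F)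
    G = !![G 0 0, 0, 0, 0, 0; 0, G 1 1, 0, 0, G 1 4; 0, 0, G 2 2, G 2 3, 0;
      0, 0, G 3 2, G 3 3, 0; 0, G 4 1, 0, 0, G 4 4] := by
  obtain ⟨a1, a2, a3, a4, a5, a6, a7, a8, a9, a10, a11, a12, a13, a14, a15, a16⟩ := R.CT_eqs hg
  intro G
  ext i j
  fin_cases i <;> fin_cases j <;>
    simp [G, a1, a2, a3, a4, a5, a6, a7, a8, a9, a10, a11, a12, a13, a14, a15, a16]

end Root5

namespace Hyp

variable (H : Hyp R M)
include H

theorem h7 : 7 ≤ Fintype.card F := R.seven_le H.prime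

theorem eq_one_of_u1 {m : R.CT} (hm : (m : GL (Fin 5) F) ∈ M)
    (h1 : (R.r1 m : Matrix (Fin 2) (Fin 2) F) = u2 1) (h4 : R.r4 m = 1) (h0 : R.r0 m = 1) :
    False := by
  have e4 : Root5.mat4 ((m : GL (Fin 5) F) : Matrix (Fin 5) (Fin 5) F) = 1 := by
    rw [← R.val_r4, h4, Units.val_one]
  rw [R.val_r1] at h1
  have f1 := fun i j => congrFun (congrFun h1 i) j
  have f4 := fun i j => congrFun (congrFun e4 i) j
  have a1 := f1 0 0; have a2 := f1 0 1; have a3 := f1 1 0; have a4 := f1 1 1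
  have b1 := f4 0 0; have b2 := f4 0 1; have b3 := f4 1 0; have b4 := f4 1 1
  simp [Root5.mat1, Root5.mat4, u2] at a1 a2 a3 a4 b1 b2 b3 b4
  have c0 : ((m : GL (Fin 5) F) : Matrix (Fin 5) (Fin 5) F) 0 0 = 1 := h0
  have hM := R.CT_matrix m.2
  have := H.nt _ hm (Pi.single 1 1) (Pi.single 4 1) (by
    rw [hM, c0, a1, a2, a3, a4, b1, b2, b3, b4]
    ext i j; fin_cases i <;> fin_cases j <;> simp [vecMulVec])
  rw [this] at a2
  simp at a2

theorem eq_one_of_u4 {m : R.CT} (hm : (m : GL (Fin 5) F) ∈ M)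
    (h4 : (R.r4 m : Matrix (Fin 2) (Fin 2) F) = u2 1) (h1 : R.r1 m = 1) (h0 : R.r0 m = 1) :
    False := by
  have e1 : Root5.mat1 ((m : GL (Fin 5) F) : Matrix (Fin 5) (Fin 5) F) = 1 := by
    rw [← R.val_r1, h1, Units.val_one]
  rw [R.val_r4] at h4
  have f1 := fun i j => congrFun (congrFun e1 i) j
  have f4 := fun i j => congrFun (congrFun h4 i) j
  have a1 := f1 0 0; have a2 := f1 0 1; have a3 := f1 1 0; have a4 := f1 1 1
  have b1 := f4 0 0; have b2 := f4 0 1; have b3 := f4 1 0; have b4 := f4 1 1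
  simp [Root5.mat1, Root5.mat4, u2] at a1 a2 a3 a4 b1 b2 b3 b4
  have c0 : ((m : GL (Fin 5) F) : Matrix (Fin 5) (Fin 5) F) 0 0 = 1 := h0
  have hM := R.CT_matrix m.2
  have := H.nt _ hm (Pi.single 2 1) (Pi.single 3 1) (by
    rw [hM, c0, a1, a2, a3, a4, b1, b2, b3, b4]
    ext i j; fin_cases i <;> fin_cases j <;> simp [vecMulVec])
  rw [this] at b2
  simp at b2

/-- The first monomiality. -/
theorem mul_eq_zero_one {g : GL (Fin 5) F} (hg : g ∈ M) (hT : Commute g R.gT) (hgJ : Commute g gJ) :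
    (g : Matrix (Fin 5) (Fin 5) F) 1 1 * (g : Matrix (Fin 5) (Fin 5) F) 1 4 = 0 := by
  classical
  by_contra hne
  have h7 := H.h7
  set p := Fintype.card F with hpdef
  let C : Subgroup R.CT := M.subgroupOf R.CT
  let f1 : R.CT →* PGL(2, F) := ProjGenLinGroup.mk.comp R.r1
  let f4 : R.CT →* PGL(2, F) := ProjGenLinGroup.mk.comp R.r4
  have hxC : R.xT ∈ C := H.hX
  have hjC : R.jT ∈ C := H.hJ
  let gC : R.CT := ⟨g, R.mem_CT.2 hT⟩
  have hgC : gC ∈ C := hg
  have w14 : R.e 1 ≠ R.e 4 := fun e => absurd (R.e_inj e) (by decide)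
  have w23 : R.e 2 ≠ R.e 3 := fun e => absurd (R.e_inj e) (by decide)
  have hjx : R.jT * R.xT * R.jT⁻¹ = R.xT⁻¹ := Subtype.ext R.gJ_conj_gX
  have hjj : R.jT * R.jT = 1 := Subtype.ext gJ_sq
  have hgj : gC * R.jT = R.jT * gC := Subtype.ext hgJ.eq
  have hP1 : p ∣ Nat.card (C.map f1) := by
    by_contra hnd
    have hsq := Plane.sq_eq_one_of_rot H.prime h7 hnd (x := f1 R.xT) (s := f1 R.jT) (g := f1 gC)
      (Subgroup.mem_map_of_mem _ hxC) (Subgroup.mem_map_of_mem _ hjC)
      (Subgroup.mem_map_of_mem _ hgC)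
      (orderOf_mk_diag R.r1_xT w14 (R.pow_e _) (R.pow_e _))
      (by rw [← map_mul, hjj, map_one]) (by rw [← map_inv, ← map_mul, ← map_mul, hjx, map_inv])
      (by rw [← map_mul, ← map_mul, hgj])
    obtain ⟨c, -, e⟩ := exists_smul_one_of_mk (A := R.r1 gC * R.r1 gC) (by
      rw [map_mul]; exact hsq)
    obtain ⟨-, -, -, -, j44, j41, -, -, -, -, -, -⟩ := CJ_eqs (mem_CJ.2 hgJ)
    rw [Units.val_mul, R.val_r1] at e
    have h01 := congrFun (congrFun e 0) 1
    simp [Root5.mat1, Matrix.mul_apply, gC, j44] at h01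
    apply hne
    exact mul_left_cancel₀ R.two (by linear_combination h01)
  have hL1 : Dickson.lsub F ≤ C.map f1 := by
    refine Plane.lsub_le H.prime h7 hP1 ?_
    rintro ⟨x, hx⟩
    exact Plane.no_fixed_point R.r1_xT w14 R.r1_jT x (hx _ (Subgroup.mem_map_of_mem _ hxC))
      (hx _ (Subgroup.mem_map_of_mem _ hjC))
  obtain ⟨m, hmC, hm⟩ := hL1 (mk_uGL_mem (1 : F))
  obtain ⟨c, hc, hmc⟩ := exists_smul_of_mk_eq hm
  rw [val_uGL] at hmc
  set l := m ^ pPrime F with hl
  have hlC : l ∈ C := pow_mem hmC _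
  have hl1 : (R.r1 l : Matrix (Fin 2) (Fin 2) F) = u2 1 := by
    rw [hl, map_pow, Units.val_pow_eq_pow_val, pow_pPrime_of_smul_u2 hc hmc]
  have hm0 : R.r0 m ≠ 0 := fun e => by
    have h := R.r0.map_mul m m⁻¹
    rw [mul_inv_cancel, map_one, e, zero_mul] at h
    exact one_ne_zero h
  have hl0 : R.r0 l = 1 := by rw [hl, map_pow, scalar_pow_pPrime hm0]
  have hyp : R.r4 l ^ p = 1 := by rw [hl, map_pow]; exact pow_p_pPrime _
  have hy1 : R.r4 l ≠ 1 := fun e => H.eq_one_of_u1 (m := l) hlC hl1 e hl0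
  have hsmul : ∀ c' : F, (R.r4 l : Matrix (Fin 2) (Fin 2) F) = c' • 1 → False := by
    intro c' e
    apply hy1
    refine Units.ext ?_
    have h := congrArg Units.val hyp
    rw [Units.val_pow_eq_pow_val, e, smul_pow, one_pow, FiniteField.pow_card, Units.val_one] at h
    rw [e, h, Units.val_one]
  have hf4l : f4 l ≠ 1 := fun e => by
    obtain ⟨c', -, e'⟩ := exists_smul_one_of_mk (A := R.r4 l) e
    exact hsmul c' e'
  have hP4 : p ∣ Nat.card (C.map f4) := by
    haveI : Fact p.Prime := ⟨H.prime⟩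
    have hord : orderOf (f4 l) = p := orderOf_eq_prime (by
      show ProjGenLinGroup.mk (R.r4 l) ^ p = 1
      rw [← map_pow, hyp, map_one]) hf4l
    have := _root_.orderOf_dvd_natCard (⟨f4 l, Subgroup.mem_map_of_mem _ hlC⟩ : C.map f4)
    rwa [Subgroup.orderOf_mk, hord] at this
  have hL4 : Dickson.lsub F ≤ C.map f4 := by
    refine Plane.lsub_le H.prime h7 hP4 ?_
    rintro ⟨x, hx⟩
    exact Plane.no_fixed_point R.r4_xT w23 R.r4_jT x (hx _ (Subgroup.mem_map_of_mem _ hxC))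
      (hx _ (Subgroup.mem_map_of_mem _ hjC))
  have star : ∀ q ∈ C, R.r1 q = 1 → R.r0 q = 1 →
      ∃ ε : F, (ε = 1 ∨ ε = -1) ∧ (R.r4 q : Matrix (Fin 2) (Fin 2) F) = ε • 1 := by
    intro q hq hq1 hq0
    let K : Subgroup R.CT := C ⊓ R.r1.ker ⊓ R.r0.toHomUnits.ker
    by_cases hK : K.map f4 = ⊥
    · have hq4 : f4 q = 1 := by
        rw [← Subgroup.mem_bot, ← hK]
        exact Subgroup.mem_map_of_mem _ ⟨⟨hq, hq1⟩, Units.ext hq0⟩
      obtain ⟨ε, -, e⟩ := exists_smul_one_of_mk (A := R.r4 q) hq4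
      refine ⟨ε, ?_, e⟩
      have e1 : Root5.mat1 ((q : GL (Fin 5) F) : Matrix (Fin 5) (Fin 5) F) = 1 := by
        rw [← R.val_r1, hq1, Units.val_one]
      rw [R.val_r4] at e
      have a1 := congrFun (congrFun e1 0) 0
      have a2 := congrFun (congrFun e1 0) 1
      have a3 := congrFun (congrFun e1 1) 0
      have a4 := congrFun (congrFun e1 1) 1
      have b1 := congrFun (congrFun e 0) 0
      have b2 := congrFun (congrFun e 0) 1
      have b3 := congrFun (congrFun e 1) 0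
      have b4 := congrFun (congrFun e 1) 1
      simp [Root5.mat1, Root5.mat4] at a1 a2 a3 a4 b1 b2 b3 b4
      have c0 : ((q : GL (Fin 5) F) : Matrix (Fin 5) (Fin 5) F) 0 0 = 1 := hq0
      have hd : ((q : GL (Fin 5) F) : Matrix (Fin 5) (Fin 5) F) = diagonal ![1, 1, ε, ε, 1] := by
        rw [R.CT_matrix q.2, c0, a1, a2, a3, a4, b1, b2, b3, b4]
        ext i j; fin_cases i <;> fin_cases j <;> simp
      have hdet := GeoClasses.mem_specialLinear_iff.1 (H.le (show (q : GL (Fin 5) F) ∈ M from hq))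
      rw [hd, det_diagonal, Fin.prod_univ_five] at hdet
      simp at hdet
      rcases mul_self_eq_one_iff.1 hdet with h | h
      · exact Or.inl h
      · exact Or.inr h
    · exfalso
      have hle : Dickson.lsub F ≤ K.map f4 := by
        refine lsub_le_of_normalised R.two h7 hL4 ?_ hK
        rintro _ ⟨a, ha, rfl⟩ _ ⟨k, ⟨⟨hkC, hk1⟩, hk0⟩, rfl⟩
        refine ⟨a * k * a⁻¹, ⟨⟨C.mul_mem (C.mul_mem ha hkC) (C.inv_mem ha), ?_⟩, ?_⟩, by simp⟩
        · exact (MonoidHom.normal_ker R.r1).conj_mem k hk1 a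
        · exact (MonoidHom.normal_ker R.r0.toHomUnits).conj_mem k hk0 a
      obtain ⟨k, ⟨⟨hkC, hk1⟩, hk0⟩, hk⟩ := hle (mk_uGL_mem (1 : F))
      obtain ⟨d, hd, hkd⟩ := exists_smul_of_mk_eq hk
      rw [val_uGL] at hkd
      refine H.eq_one_of_u4 (m := k ^ pPrime F) (pow_mem hkC _) ?_ ?_ ?_
      · rw [map_pow, Units.val_pow_eq_pow_val, pow_pPrime_of_smul_u2 hd hkd]
      · rw [map_pow, MonoidHom.mem_ker.1 hk1, one_pow]
      · rw [map_pow, show R.r0 k = 1 from congrArg Units.val (MonoidHom.mem_ker.1 hk0), one_pow]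
  haveI : Fact p.Prime := ⟨H.prime⟩
  haveI : CharP F p := charP_of_card_eq_prime rfl
  obtain ⟨k, hk⟩ : ∃ k : ℕ, (k : F) = R.e 2 := by
    obtain ⟨z, hz⟩ := (ZMod.castHom_bijective F (n := p) rfl).2 (R.e 2)
    exact ⟨z.val, by rw [← hz, ZMod.castHom_apply, ZMod.natCast_val]⟩
  set q := R.xT * l * R.xT⁻¹ * (l ^ k)⁻¹ with hqdef
  have hqC : q ∈ C := mul_mem (mul_mem (mul_mem hxC hlC) (inv_mem hxC)) (inv_mem (pow_mem hlC _))
  have hq1 : R.r1 q = 1 := by
    rw [hqdef, map_mul, map_inv, mul_inv_eq_one, map_pow, map_mul, map_mul, map_inv,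
      mul_inv_eq_iff_eq_mul]
    refine Units.ext ?_
    rw [Units.val_mul, Units.val_mul, Units.val_pow_eq_pow_val, hl1, u2_pow, mul_one, R.r1_xT, hk]
    ext i j
    fin_cases i <;> fin_cases j <;> simp [u2, Matrix.mul_apply]
    rw [← R.e_add]
    rfl
  have hq0 : R.r0 q = 1 := by
    have hx := R.r0.map_mul R.xT R.xT⁻¹
    rw [mul_inv_cancel, map_one] at hx
    have hlk := R.r0.map_mul (l ^ k) (l ^ k)⁻¹
    rw [mul_inv_cancel, map_one, map_pow, hl0, one_pow, one_mul] at hlk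
    rw [hqdef, map_mul, map_mul, map_mul, hl0, mul_one, ← hlk, ← hx, mul_one]
  obtain ⟨ε, hε, heq⟩ := star q hqC hq1 hq0
  have hqx : q * l ^ k = R.xT * l * R.xT⁻¹ := by rw [hqdef, inv_mul_cancel_right]
  have hε1 : ε = 1 := by
    refine hε.resolve_right fun h => ?_
    have h1 : (R.r4 (R.xT * l * R.xT⁻¹)) ^ p = 1 := by
      rw [map_mul, map_mul, map_inv, conj_pow, hyp, mul_one, mul_inv_cancel]
    rw [← hqx, map_mul, map_pow] at h1
    have h2 := congrArg Units.val h1
    rw [Units.val_pow_eq_pow_val, Units.val_mul, heq, Units.val_pow_eq_pow_val, smul_mul_assoc,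
      one_mul, smul_pow, ← pow_mul, mul_comm k p, pow_mul, ← Units.val_pow_eq_pow_val, hyp,
      Units.val_one, one_pow, FiniteField.pow_card, h] at h2
    have h3 := congrFun (congrFun h2 0) 0
    simp at h3
    exact R.two (by linear_combination -h3)
  have hxy : R.r4 R.xT * R.r4 l = R.r4 l ^ k * R.r4 R.xT := by
    have hq4 : R.r4 q = 1 := Units.ext (by rw [heq, hε1, one_smul, Units.val_one])
    have h := congrArg R.r4 hqx
    rw [map_mul, hq4, one_mul, map_pow, map_mul, map_mul, map_inv, eq_mul_inv_iff_mul_eq] at h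
    exact h.symm
  set N := (R.r4 l : Matrix (Fin 2) (Fin 2) F) - 1 with hNdef
  have hy : (R.r4 l : Matrix (Fin 2) (Fin 2) F) = 1 + N := by rw [hNdef, add_sub_cancel]
  have hNN : N * N = 0 := by
    refine sq_zero_of_pow_zero (n := p) ?_
    haveI : CharP (Matrix (Fin 2) (Fin 2) F) p := inferInstance
    rw [hNdef, sub_pow_char_of_commute (Commute.one_right _) (p := p), ← Units.val_pow_eq_pow_val,
      hyp, Units.val_one, one_pow, sub_self]
  have hyk : ∀ n : ℕ, (R.r4 l : Matrix (Fin 2) (Fin 2) F) ^ n = 1 + (n : F) • N := by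
    intro n
    induction n with
    | zero => simp
    | succ n ih =>
      rw [pow_succ, ih, hy, add_mul, one_mul, smul_mul_assoc, mul_add, mul_one, hNN, add_zero,
        Nat.cast_succ, add_smul, one_smul]
      abel
  have hX := congrArg Units.val hxy
  rw [Units.val_mul, Units.val_mul, Units.val_pow_eq_pow_val, hyk, hk, R.r4_xT, hy] at hX
  apply hy1
  refine Units.ext ?_
  rw [hy, Units.val_one, add_eq_left]
  have a := congrFun (congrFun hX 0) 0
  have b := congrFun (congrFun hX 0) 1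
  have c := congrFun (congrFun hX 1) 0
  have d := congrFun (congrFun hX 1) 1
  simp [Matrix.mul_apply, Matrix.one_apply] at a b c d
  have ne : ∀ {a b : Fin 5}, a ≠ b → R.e a - R.e b ≠ 0 := fun h => sub_ne_zero.2 fun e => h (R.e_inj e)
  have e22 : R.e 2 * R.e 2 = R.e 4 := (R.e_add 2 2).symm
  have e23 : R.e 2 * R.e 3 = R.e 0 := (R.e_add 2 3).symm
  ext i j
  fin_cases i <;> fin_cases j <;> simp
  · exact (mul_eq_zero.1 (show (R.e 2 - R.e 4) * N 0 0 = 0 by
      linear_combination a + N 0 0 * e22)).resolve_left (ne (by decide))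
  · exact (mul_eq_zero.1 (show (R.e 2 - R.e 0) * N 0 1 = 0 by
      linear_combination b + N 0 1 * e23)).resolve_left (ne (by decide))
  · exact (mul_eq_zero.1 (show (R.e 3 - R.e 4) * N 1 0 = 0 by
      linear_combination c + N 1 0 * e22)).resolve_left (ne (by decide))
  · exact (mul_eq_zero.1 (show (R.e 3 - R.e 0) * N 1 1 = 0 by
      linear_combination d + N 1 1 * e23)).resolve_left (ne (by decide))

/-- The second monomiality. -/
theorem mul_eq_zero_two {g : GL (Fin 5) F} (hg : g ∈ M) (hT : Commute g R.gT) (hgJ : Commute g gJ) :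
    (g : Matrix (Fin 5) (Fin 5) F) 2 2 * (g : Matrix (Fin 5) (Fin 5) F) 2 3 = 0 := by
  have hh : Commute (gS * g * gS⁻¹) gJ :=
    mem_CJ.1 (mul_mem (mul_mem gS_mem_CJ (mem_CJ.2 hgJ)) (inv_mem gS_mem_CJ))
  have h := H.mul_eq_zero_one (mul_mem (mul_mem H.hS hg) (inv_mem H.hS))
    (R.mem_CT.1 (R.gS_conj_mem_CT (R.mem_CT.2 hT))) hh
  obtain ⟨-, -, -, -, -, -, -, -, -, -, a11, a12⟩ := CJ_eqs (mem_CJ.2 hgJ)
  rw [gS_conj_apply, gS_conj_apply] at h
  simp only [show (3 : Fin 5) * 1 = 3 from rfl, show (3 : Fin 5) * 4 = 2 from rfl, a11, a12] at h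
  exact h

end Hyp

end Cfsg.Agent.MaxSub.CSixFive
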