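import Cfsg.Agent.MaxSub.CSixFive.Main
import Cfsg.Agent.MaxSub.CSixFive.CentJ

/-!
The normaliser of `5^{1+2}` is maximal in `SL₅(p)`, `p ≡ 1 mod 5`.
-/

set_option autoImplicit false
set_option linter.style.haveILetI false

namespace Cfsg.Agent.MaxSub.CSixFive

open Matrix Cfsg.Geo
open scoped MatrixGroups

/-- Clause 5 of the list of maximal subgroups of `SL₅`. -/
theorem symplecticType_five_maximal {F : Type*} [Field F] [Fintype F]
    (hp : ∃ p : ℕ, p.Prime ∧ Fintype.card F = p ∧ (p % 5 = 1))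
    (R : Subgroup (GL (Fin 5) F)) (hR : IsLinearSymplecticTypeData 5 R) :
    IsMaximalIn (specialLinear (Fin 5) F) (subgroupNormalizer R ⊓ specialLinear (Fin 5) F) := by
  obtain ⟨p, hp, hcard, hp5⟩ := hp
  exact symplecticType_five_maximal_of hp hcard hp5 hR fun S M H =>
    ⟨fun g hg hJ h2 => H.involution_eq hg hJ h2,
     fun N h1 h2 h3 g hg => H.odd_normal_scalar h1 h2 h3 hg⟩

end Cfsg.Agent.MaxSub.CSixFive
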