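import Cfsg.Agent.MaxSub.CSixFive.Blocks

/-!
Coprime action tools and the `3 × 3` block facts used for the centraliser of `J`.
-/

set_option autoImplicit false
set_option linter.unusedSectionVars false
set_option linter.unusedSimpArgs false
set_option linter.style.haveILetI false

namespace Cfsg.Agent.MaxSub.CSixFive

open Matrix
open scoped MatrixGroups Fin.CommRing Fin.NatCast Pointwise

section action

variable {G : Type*} [Group G] [Finite G]

/-- An automorphism of order five, the group order prime to five: every Sylow subgroup has an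
invariant conjugate, hence there is an invariant nontrivial abelian `q`-subgroup. -/
theorem exists_invariant_abelian (φ : MulAut G) (h5 : φ ^ 5 = 1) (hn : ¬ 5 ∣ Nat.card G) (q : ℕ)
    [Fact q.Prime] (hq : q ∣ Nat.card G) :
    ∃ A : Subgroup G, IsPGroup q A ∧ (∀ a ∈ A, ∀ b ∈ A, a * b = b * a) ∧ A ≠ ⊥ ∧
      ∀ a ∈ A, φ a ∈ A := by
  haveI : Fact (Nat.Prime 5) := ⟨by norm_num⟩
  have hp : IsPGroup 5 (Subgroup.zpowers φ) := by
    rintro ⟨g, k, rfl⟩
    refine ⟨1, Subtype.ext ?_⟩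
    show (φ ^ k) ^ (5 ^ 1) = 1
    rw [pow_one, ← zpow_natCast, ← _root_.zpow_mul, mul_comm, _root_.zpow_mul, zpow_natCast, h5, _root_.one_zpow]
  have hcount : ¬ 5 ∣ Nat.card (Sylow q G) := fun h => by
    obtain ⟨P⟩ : Nonempty (Sylow q G) := inferInstance
    exact hn ((h.trans P.card_dvd_index).trans (P : Subgroup G).index_dvd_card)
  obtain ⟨P, hP⟩ := hp.nonempty_fixed_point_of_prime_not_dvd_card (Sylow q G) hcount
  have hPφ : φ • (P : Subgroup G) = P := by
    have := congrArg Sylow.toSubgroup (hP ⟨φ, Subgroup.mem_zpowers φ⟩)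
    exact this
  have hne : (P : Subgroup G) ≠ ⊥ := P.ne_bot_of_dvd_card hq
  refine ⟨(P : Subgroup G) ⊓ Subgroup.centralizer (P : Set G), P.2.to_le inf_le_left,
    fun a ha b hb => (Subgroup.mem_centralizer_iff.1 ha.2 b hb.1).symm, ?_, ?_⟩
  · intro h
    haveI : Nontrivial P := (Subgroup.nontrivial_iff_ne_bot _).2 hne
    obtain ⟨⟨⟨x, hx⟩, hc⟩, hne'⟩ :=
      @exists_ne (Subgroup.center (P : Subgroup G)) P.2.center_nontrivial 1
    apply hne'
    have hmem : x ∈ (P : Subgroup G) ⊓ Subgroup.centralizer (P : Set G) :=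
      ⟨hx, Subgroup.mem_centralizer_iff.2 fun y hy =>
        congrArg Subtype.val (Subgroup.mem_center_iff.1 hc ⟨y, hy⟩)⟩
    rw [h, Subgroup.mem_bot] at hmem
    exact Subtype.ext (Subtype.ext hmem)
  · rintro a ⟨ha, hc⟩
    have hmap : ∀ y ∈ (P : Subgroup G), φ y ∈ (P : Subgroup G) := fun y hy => by
      rw [← hPφ]; exact Subgroup.smul_mem_pointwise_smul y φ _ hy
    refine ⟨hmap a ha, Subgroup.mem_centralizer_iff.2 fun y hy => ?_⟩
    have hy' : y ∈ φ • (P : Subgroup G) := by rw [hPφ]; exact hy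
    obtain ⟨w, hw, rfl⟩ := Subgroup.mem_smul_pointwise_iff_exists _ _ _ |>.1 hy'
    show φ w * φ a = φ a * φ w
    rw [← map_mul, ← map_mul, Subgroup.mem_centralizer_iff.1 hc w hw]

theorem card_fixed_modEq (φ : MulAut G) (h5 : φ ^ 5 = 1) :
    Nat.card G ≡ Nat.card {g : G | φ g = g} [MOD 5] := by
  haveI : Fact (Nat.Prime 5) := ⟨by norm_num⟩
  have hp : IsPGroup 5 (Subgroup.zpowers φ) := by
    rintro ⟨g, k, rfl⟩
    refine ⟨1, Subtype.ext ?_⟩
    show (φ ^ k) ^ (5 ^ 1) = 1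
    rw [pow_one, ← zpow_natCast, ← _root_.zpow_mul, mul_comm, _root_.zpow_mul, zpow_natCast, h5, _root_.one_zpow]
  have h := hp.card_modEq_card_fixedPoints G
  have e : MulAction.fixedPoints (Subgroup.zpowers φ) G = {g : G | φ g = g} := by
    ext g
    constructor
    · exact fun hg => hg ⟨φ, Subgroup.mem_zpowers φ⟩
    · rintro hg ⟨_, k, rfl⟩
      have : φ ∈ MulAction.stabilizer (MulAut G) g := hg
      exact Subgroup.zpow_mem _ this k
  rwa [e] at h

end action

variable {F : Type*} [Field F]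

section field

variable [Fintype F] {R : Root5 F}

/-- Natural representatives of the fifth roots in a prime field. -/
theorem exists_nat_cast (hp : (Fintype.card F).Prime) (a : F) : ∃ n : ℕ, (n : F) = a := by
  haveI : Fact (Fintype.card F).Prime := ⟨hp⟩
  haveI : CharP F (Fintype.card F) := charP_of_card_eq_prime rfl
  obtain ⟨z, hz⟩ := (ZMod.castHom_bijective F (n := Fintype.card F) rfl).2 a
  exact ⟨z.val, by rw [← hz, ZMod.castHom_apply, ZMod.natCast_val]⟩

theorem pow_eq_pow_of_cast {G : Type*} [Monoid G] (hp : (Fintype.card F).Prime) {z : G}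
    (hz : z ^ Fintype.card F = 1) {a b : ℕ} (h : (a : F) = b) : z ^ a = z ^ b := by
  haveI : Fact (Fintype.card F).Prime := ⟨hp⟩
  haveI : CharP F (Fintype.card F) := charP_of_card_eq_prime rfl
  have hmod : a % Fintype.card F = b % Fintype.card F :=
    (CharP.natCast_eq_natCast (R := F) (Fintype.card F)).1 h
  rw [pow_eq_pow_mod a hz, pow_eq_pow_mod b hz, hmod]

/-- An eigenvector of an automorphism of order five of an elementary abelian `p`-group. -/
theorem exists_eigen {A : Type*} [CommGroup A] (R : Root5 F) (hp : (Fintype.card F).Prime)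
    (φ : A →* A) (h5 : ∀ a, φ (φ (φ (φ (φ a)))) = a) {z : A} (hA : ∀ a : A, a ^ Fintype.card F = 1)
    (hz : z ≠ 1) :
    ∃ (w : A) (d : Fin 5) (k : ℕ), w ≠ 1 ∧ (k : F) = R.e d ∧ φ w = w ^ k := by
  classical
  by_contra hcon
  push Not at hcon
  choose c hc using fun d : Fin 5 => exists_nat_cast hp (R.e d)
  set it : Fin 5 → A := fun i => (fun a => φ a)^[(i : ℕ)] z with hit
  have hstep : ∀ i, φ (it i) = it (i + 1) := by
    intro i
    fin_cases i <;> simp [hit]
    exact h5 z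
  set w : Fin 5 → A := fun d => ∏ i : Fin 5, it i ^ c (-(d * i)) with hw
  have hφw : ∀ d, φ (w d) = w d ^ c d := by
    intro d
    simp only [hw, map_prod, map_pow, hstep, ← Finset.prod_pow, ← pow_mul]
    refine Fintype.prod_bijective (fun i : Fin 5 => i + 1) (AddGroup.addRight_bijective 1) _ _ fun i => ?_
    refine pow_eq_pow_of_cast hp (hA _) ?_
    rw [Nat.cast_mul, hc, hc, hc, ← R.e_add]
    congr 1; ring
  have hone : ∀ d, w d = 1 := fun d => by
    by_contra hne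
    exact hcon (w d) d (c d) hne (hc d) (hφw d)
  have hprod : ∏ d, w d = z ^ 5 := by
    simp only [hw]
    rw [Finset.prod_comm, Finset.prod_eq_single (0 : Fin 5)]
    · rw [Finset.prod_pow_eq_pow_sum]
      refine pow_eq_pow_of_cast hp (hA _) ?_
      simp [hc, R.e_zero]
    · intro i _ hi
      rw [Finset.prod_pow_eq_pow_sum, ← pow_zero (it i)]
      refine pow_eq_pow_of_cast hp (hA _) ?_
      rw [Nat.cast_sum, Nat.cast_zero]
      simp only [hc]
      rw [Finset.sum_congr rfl fun j _ => congrArg R.e (show -(j * i) = -i * j by ring)]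
      exact R.e_sum (neg_ne_zero.2 hi)
    · simp
  rw [Finset.prod_eq_one fun d _ => hone d] at hprod
  haveI : Fact (Nat.Prime 5) := ⟨by norm_num⟩
  have ho : orderOf z = 5 := orderOf_eq_prime hprod.symm hz
  have hd := orderOf_dvd_of_pow_eq_one (hA z)
  rw [ho] at hd
  have h55 := (Nat.prime_dvd_prime_iff_eq (by norm_num : Nat.Prime 5) hp).1 hd
  exact R.five (by
    rw [show (5 : F) = ((5 : ℕ) : F) by simp, h55]; exact FiniteField.cast_card_eq_zero F)

end field

/-- A nilpotent `3 × 3` matrix has cube zero. -/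
theorem cube_zero_of_pow_zero {N : Matrix (Fin 3) (Fin 3) F} {n : ℕ} (hn : N ^ n = 0) :
    N ^ 3 = 0 := by
  refine Matrix.toLin'.injective (LinearMap.ker_eq_top.1 ?_ |>.trans (map_zero _).symm)
  rw [Matrix.toLin'_pow]
  have h := Module.End.ker_pow_le_ker_pow_finrank (Matrix.toLin' N) n
  rw [← Matrix.toLin'_pow, hn, map_zero, LinearMap.ker_zero, Module.finrank_fin_fun,
    top_le_iff] at h
  exact h

theorem pow_one_add {N : Matrix (Fin 3) (Fin 3) F} (hN : N ^ 3 = 0) (h2 : (2 : F) ≠ 0) (n : ℕ) :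
    (1 + N) ^ n = 1 + (n : F) • N + ((n : F) * ((n : F) - 1) / 2) • (N * N) := by
  have h3 : N * N * N = 0 := by rw [← hN, pow_succ, pow_two]
  induction n with
  | zero => simp
  | succ n ih =>
    rw [pow_succ, ih, add_mul, add_mul, one_mul, smul_mul_assoc, smul_mul_assoc, mul_add, mul_add,
      mul_one, mul_one, h3, add_zero, Nat.cast_succ,
      show ((n : F) + 1) * ((n : F) + 1 - 1) / 2 = (n : F) * ((n : F) - 1) / 2 + (n : F) by
        field_simp; ring]
    module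

/-- The logarithm of a unipotent matrix fixed by scaling. -/
theorem exp_log {N : Matrix (Fin 3) (Fin 3) F} (hN : N ^ 3 = 0) (h2 : (2 : F) ≠ 0) :
    let L := N - (2 : F)⁻¹ • (N * N)
    1 + N = 1 + L + (2 : F)⁻¹ • (L * L) := by
  intro L
  have h3 : N * N * N = 0 := by rw [← hN, pow_succ, pow_two]
  have h3' : N * (N * N) = 0 := by rw [← mul_assoc, h3]
  have hL : L * L = N * N := by
    simp only [L, sub_mul, mul_sub, smul_mul_assoc, mul_smul_comm, h3, h3', mul_assoc, smul_zero,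
      mul_zero, sub_zero]
  rw [hL]
  simp only [L]
  abel

/-- The five-dimensional matrix with given blocks. -/
def mat5 (m : Matrix (Fin 2) (Fin 2) F) (p : Matrix (Fin 3) (Fin 3) F) :
    Matrix (Fin 5) (Fin 5) F :=
  !![p 0 0, p 0 1 / 2, p 0 2 / 2, p 0 2 / 2, p 0 1 / 2;
    p 1 0, (p 1 1 + m 0 0) / 2, (p 1 2 + m 0 1) / 2, (p 1 2 - m 0 1) / 2, (p 1 1 - m 0 0) / 2;
    p 2 0, (p 2 1 + m 1 0) / 2, (p 2 2 + m 1 1) / 2, (p 2 2 - m 1 1) / 2, (p 2 1 - m 1 0) / 2;
    p 2 0, (p 2 1 - m 1 0) / 2, (p 2 2 - m 1 1) / 2, (p 2 2 + m 1 1) / 2, (p 2 1 + m 1 0) / 2;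
    p 1 0, (p 1 1 - m 0 0) / 2, (p 1 2 - m 0 1) / 2, (p 1 2 + m 0 1) / 2, (p 1 1 + m 0 0) / 2]

theorem CJ_matrix (h2 : (2 : F) ≠ 0) (g : CJ F) :
    ((g : GL (Fin 5) F) : Matrix (Fin 5) (Fin 5) F) =
      mat5 (rM g : Matrix (Fin 2) (Fin 2) F) (rP g : Matrix (Fin 3) (Fin 3) F) := by
  obtain ⟨a1, a2, a3, a4, a5, a6, a7, a8, a9, a10, a11, a12⟩ := CJ_eqs g.2
  rw [val_rM, val_rP]
  ext i j
  fin_cases i <;> fin_cases j <;>
    simp [mat5, matM, matP, a1, a2, a3, a4, a5, a6, a7, a8, a9, a10, a11, a12] <;> field_simp <;> ring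

namespace Root5

variable (R : Root5 F)

theorem gQ_mem_CJ : R.gQ ∈ CJ F := mem_CJ.2 R.commute_gQ_gJ

/-- The circulant in the centraliser of `J`. -/
def qJ : CJ F := ⟨R.gQ, R.gQ_mem_CJ⟩

/-- `Q T Q⁻¹`. -/
def yJ : CJ F := R.uJ⁻¹ * R.tJ

theorem yJ_eq : R.yJ = R.qJ * R.tJ * R.qJ⁻¹ := by
  refine Subtype.ext ?_
  show R.gU⁻¹ * R.gT = R.gQ * R.gT * R.gQ⁻¹
  rw [gU]; group

theorem e_pow_two_ne {a b : Fin 5} (h : a ≠ b) : R.e a - R.e b ≠ 0 :=
  sub_ne_zero.2 fun e => h (R.e_inj e)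

theorem e_add_ne (a b : Fin 5) : R.e a + R.e b ≠ 0 := fun h => by
  have h' : R.e a = -R.e b := eq_neg_of_add_eq_zero_left h
  have h5 := R.pow_e a
  rw [h', neg_pow, R.pow_e, mul_one] at h5
  exact R.two (by linear_combination -h5)

theorem rM_qJ_ne : (rM R.qJ : Matrix (Fin 2) (Fin 2) F) 0 0 ≠ 0 ∧
    (rM R.qJ : Matrix (Fin 2) (Fin 2) F) 0 1 ≠ 0 := by
  rw [val_rM]
  constructor
  · simpa [matM, qJ, gQ, qM] using R.e_pow_two_ne (a := 0) (b := 4) (by decide)
  · simpa [matM, qJ, gQ, qM] using R.e_pow_two_ne (a := 1) (b := 4) (by decide)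

theorem rP_qJ_row (j : Fin 3) : (rP R.qJ : Matrix (Fin 3) (Fin 3) F) 0 j ≠ 0 := by
  rw [val_rP]
  fin_cases j
  · simpa [matP, qJ, gQ, qM] using R.e_ne _
  · simpa [matP, qJ, gQ, qM] using R.e_add_ne _ _
  · simpa [matP, qJ, gQ, qM] using R.e_add_ne _ _

theorem rP_qJ_inv_col (i : Fin 3) :
    (((rP R.qJ)⁻¹ : GL (Fin 3) F) : Matrix (Fin 3) (Fin 3) F) i 0 ≠ 0 := by
  rw [← map_inv, val_rP]
  show matP (R.gQ⁻¹ : GL (Fin 5) F).1 i 0 ≠ 0
  fin_cases i <;> simp [matP, gQ, qM', R.five, R.e_ne]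

theorem tJ_pow_five : R.tJ ^ 5 = 1 := by
  refine Subtype.ext (Units.ext ?_)
  show (((R.tJ : CJ F) ^ 5 : CJ F) : GL (Fin 5) F).1 = 1
  rw [SubmonoidClass.coe_pow, Units.val_pow_eq_pow_val]
  show (R.gT : Matrix (Fin 5) (Fin 5) F) ^ 5 = 1
  rw [gT, val_dG, diagonal_pow, ← diagonal_one]
  congr 1; funext i; exact R.pow_e _

end Root5

end Cfsg.Agent.MaxSub.CSixFive
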