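import Cfsg.Agent.MaxSub.CSixFive.Signs
import Cfsg.Agent.MaxSub.CSixFive.Tools

/-!
Unipotent elements of `C(J)` scaled by `T`.
-/

set_option autoImplicit false
set_option linter.unusedSectionVars false
set_option linter.unusedSimpArgs false
set_option linter.style.haveILetI false

namespace Cfsg.Agent.MaxSub.CSixFive

open Matrix Cfsg.Geo
open scoped MatrixGroups Fin.CommRing Fin.NatCast

variable {F : Type*} [Field F]

/-- The weights of `T` on the `+1`-space. -/
def wt : Fin 3 → Fin 5 := ![0, 1, 4]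

theorem Root5.rP_tJ_wt (R : Root5 F) :
    (rP R.tJ : Matrix (Fin 3) (Fin 3) F) = diagonal fun i => R.e (wt i) := by
  rw [R.rP_tJ]
  congr 1; funext i; fin_cases i <;> simp [wt, R.e_zero]

/-- `S` in the centraliser of `J`. -/
def sJ : CJ F := ⟨gS, gS_mem_CJ⟩

theorem gE_mem_CJ : (gE : GL (Fin 5) F) ∈ CJ F := by
  refine mem_CJ.2 (zG_comm ?_)
  decide +kernel

/-- The sign change in the centraliser of `J`. -/
def eJ : CJ F := ⟨gE, gE_mem_CJ⟩

theorem rM_eJ : (rM (eJ : CJ F) : Matrix (Fin 2) (Fin 2) F) = !![-1, 0; 0, 1] := by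
  rw [val_rM]
  ext i j
  fin_cases i <;> fin_cases j <;> simp [matM, eJ, gE, val_zG, zM, eZ]

theorem rP_eJ : (rP (eJ : CJ F) : Matrix (Fin 3) (Fin 3) F) = !![1, 0, 0; 0, -1, 0; 0, 0, 1] := by
  rw [val_rP]
  ext i j
  fin_cases i <;> fin_cases j <;> simp [matP, eJ, gE, val_zG, zM, eZ]

theorem rP_sJ : (rP (sJ : CJ F) : Matrix (Fin 3) (Fin 3) F) = !![-1, 0, 0; 0, 0, -1; 0, -1, 0] := by
  rw [val_rP]
  ext i j
  fin_cases i <;> fin_cases j <;> simp [matP, sJ, val_gS]

def sZ03 : Matrix (Fin 5) (Fin 5) ℤ := diagonal ![-1, 1, 1, -1, 1]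
/-- The sign change on `e₀, e₃`. -/
def gE03 : GL (Fin 5) F := zG F sZ03 sZ03 (by decide +kernel) (by decide +kernel)

theorem gE03_eq : (gE03 : GL (Fin 5) F) = gA ^ 4 * gE * gA := by
  refine Units.ext ?_
  simp only [gE03, gE, gA, Units.val_mul, Units.val_pow_eq_pow_val, val_zG, zM, ← map_mul, ← map_pow]
  exact congrArg _ (by decide +kernel)

theorem rank_one_product (h2 : (2 : F) ≠ 0) (s a : F) :
    let W := mat5 (u2 a) !![1, 0, 0; 0, 1, s; 0, 0, 1]
    let σ : Fin 5 → F := ![-1, 1, 1, -1, 1]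
    W * (diagonal σ * W * diagonal σ) =
      1 + vecMulVec ![0, s + a, 0, 0, s - a] ![0, 0, 1, 0, 0] := by
  intro W σ
  have hW : W = !![1, 0, 0, 0, 0; 0, 1, (s + a) / 2, (s - a) / 2, 0; 0, 0, 1, 0, 0; 0, 0, 0, 1, 0;
      0, 0, (s - a) / 2, (s + a) / 2, 1] := by
    ext i j; fin_cases i <;> fin_cases j <;> simp [W, mat5, u2, h2] <;> field_simp <;> ring
  have hc : diagonal σ * W * diagonal σ = !![1, 0, 0, 0, 0; 0, 1, (s + a) / 2, -((s - a) / 2), 0;
      0, 0, 1, 0, 0; 0, 0, 0, 1, 0; 0, 0, (s - a) / 2, -((s + a) / 2), 1] := by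
    ext i j
    rw [mul_diagonal, diagonal_mul, hW]
    fin_cases i <;> fin_cases j <;> simp [σ]
  rw [hc, hW]
  ext i j; fin_cases i <;> fin_cases j <;>
    simp [Matrix.mul_apply, Fin.sum_univ_five, vecMulVec] <;> field_simp <;> ring

theorem val_gE03 : ((gE03 : GL (Fin 5) F) : Matrix (Fin 5) (Fin 5) F) =
    diagonal ![-1, 1, 1, -1, 1] := by
  ext i j
  fin_cases i <;> fin_cases j <;> simp [gE03, val_zG, zM, sZ03]

variable [Fintype F] {R : Root5 F} {M : Subgroup (GL (Fin 5) F)}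

namespace Hyp

variable (H : Hyp R M)
include H

theorem eq_one_of_transv3 {g : CJ F} (hg : (g : GL (Fin 5) F) ∈ M) (hM : rM g = 1)
    (u a : Fin 3 → F) (hP : (rP g : Matrix (Fin 3) (Fin 3) F) = 1 + vecMulVec u a) : g = 1 := by
  have h2 := R.two
  refine Subtype.ext (H.nt _ hg ![u 0, u 1, u 2, u 2, u 1]
    ![a 0, a 1 / 2, a 2 / 2, a 2 / 2, a 1 / 2] ?_)
  rw [CJ_matrix h2 g, hM, hP, Units.val_one]
  ext i j
  fin_cases i <;> fin_cases j <;> simp [mat5, vecMulVec] <;> field_simp <;> ring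

theorem eq_one_of_transvM {g : CJ F} (hg : (g : GL (Fin 5) F) ∈ M) (hP : rP g = 1) (a : F)
    (hM : (rM g : Matrix (Fin 2) (Fin 2) F) = u2 a) : g = 1 := by
  have h2 := R.two
  refine Subtype.ext (H.nt _ hg ![0, a / 2, 0, 0, -(a / 2)] ![0, 0, 1, -1, 0] ?_)
  rw [CJ_matrix h2 g, hM, hP, Units.val_one]
  ext i j
  fin_cases i <;> fin_cases j <;> simp [mat5, u2, vecMulVec] <;> field_simp <;> ring

/-- The shape of a unipotent element scaled by `T`. -/
theorem homog {w : CJ F} {a : F} (ha : (rM w : Matrix (Fin 2) (Fin 2) F) = u2 a)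
    (hwp : w ^ Fintype.card F = 1) {k : ℕ} {d : Fin 5} (hk : (k : F) = R.e d)
    (hw : R.tJ * w * R.tJ⁻¹ = w ^ k) :
    ((d = 2 ∨ a = 0) ∧ ∃ L : Matrix (Fin 3) (Fin 3) F,
      (∀ i j, wt i ≠ d + wt j → L i j = 0) ∧ L * L * L = 0 ∧
      (rP w : Matrix (Fin 3) (Fin 3) F) = 1 + L + (2 : F)⁻¹ • (L * L)) := by
  have h2 := R.two
  haveI : Fact (Fintype.card F).Prime := ⟨H.prime⟩
  haveI : CharP F (Fintype.card F) := charP_of_card_eq_prime rfl
  rw [mul_inv_eq_iff_eq_mul] at hw
  have hM := congrArg (fun g => (rM g : Matrix (Fin 2) (Fin 2) F)) hw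
  have hP := congrArg (fun g => (rP g : Matrix (Fin 3) (Fin 3) F)) hw
  simp only [map_mul, map_pow, Units.val_mul, Units.val_pow_eq_pow_val] at hM hP
  refine ⟨?_, ?_⟩
  · rw [ha, u2_pow, R.rM_tJ, hk] at hM
    have h01 := congrFun (congrFun hM 0) 1
    simp [u2, Matrix.mul_apply] at h01
    by_cases hd : d = 2
    · exact Or.inl hd
    refine Or.inr ((mul_eq_zero.1 (show (R.e 1 - R.e d * R.e 4) * a = 0 by
      linear_combination h01)).resolve_left ?_)
    rw [← R.e_add]
    refine sub_ne_zero.2 fun e => hd ?_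
    exact (by decide : ∀ d : Fin 5, (1 : Fin 5) = d + 4 → d = 2) d (R.e_inj e)
  · set Z := (rP w : Matrix (Fin 3) (Fin 3) F)
    set N := Z - 1 with hNdef
    have hZ : Z = 1 + N := by rw [hNdef, add_sub_cancel]
    have hN : N ^ 3 = 0 := by
      refine cube_zero_of_pow_zero (n := Fintype.card F) ?_
      rw [hNdef, sub_pow_char_of_commute (Commute.one_right _) (p := Fintype.card F),
        ← Units.val_pow_eq_pow_val, ← map_pow, hwp, map_one, Units.val_one, one_pow, sub_self]
    have h3 : N * N * N = 0 := by rw [← hN, pow_succ, pow_two]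
    have h3' : N * (N * N) = 0 := by rw [← mul_assoc, h3]
    refine ⟨N - (2 : F)⁻¹ • (N * N), ?_, ?_, hZ.trans (exp_log hN h2)⟩
    · intro i j hij
      rw [R.rP_tJ_wt, hZ, pow_one_add hN h2, hk, mul_add, mul_one, add_assoc, add_mul, one_mul,
        add_right_inj] at hP
      set D := (diagonal fun i => R.e (wt i) : Matrix (Fin 3) (Fin 3) F)
      set C := R.e d * (R.e d - 1) / 2
      have e1 : D * (N * N) = (R.e d * R.e d) • (N * N * D) := by
        rw [← mul_assoc, hP]
        simp only [add_mul, smul_mul_assoc, mul_assoc]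
        rw [hP]
        simp only [add_mul, mul_add, smul_mul_assoc, mul_smul_comm, ← mul_assoc, h3, zero_mul,
          smul_zero, add_zero, smul_smul]
      have e2 : D * (N - (2 : F)⁻¹ • (N * N)) = R.e d • ((N - (2 : F)⁻¹ • (N * N)) * D) := by
        rw [mul_sub, mul_smul_comm, e1, hP]
        simp only [add_mul, sub_mul, smul_mul_assoc, smul_sub, smul_smul, C]
        match_scalars <;> field_simp <;> ring
      have e3 := congrFun (congrFun e2 i) j
      simp only [D, diagonal_mul, mul_diagonal, Matrix.smul_apply, smul_eq_mul] at e3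
      refine (mul_eq_zero.1 (show (R.e (wt i) - R.e d * R.e (wt j)) *
        (N - (2 : F)⁻¹ • (N * N)) i j = 0 by linear_combination e3)).resolve_left ?_
      rw [← R.e_add]
      exact sub_ne_zero.2 fun e => hij (R.e_inj e)
    · simp only [sub_mul, mul_sub, smul_mul_assoc, mul_smul_comm, h3, h3', mul_assoc, smul_zero,
        mul_zero, sub_zero]

/-- With the sign change, no homogeneous unipotent element survives. -/
theorem homog_eq_one (hE : gE ∈ M) {w : CJ F} (hwM : (w : GL (Fin 5) F) ∈ M) {a : F}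
    (ha : (rM w : Matrix (Fin 2) (Fin 2) F) = u2 a) (hwp : w ^ Fintype.card F = 1) {k : ℕ}
    {d : Fin 5} (hk : (k : F) = R.e d) (hw : R.tJ * w * R.tJ⁻¹ = w ^ k) : w = 1 := by
  have h2 := R.two
  obtain ⟨hda, L, hL, hL3, hP⟩ := H.homog ha hwp hk hw
  have hu0 : u2 (0 : F) = 1 := by ext i j; fin_cases i <;> fin_cases j <;> simp [u2]
  have hr1 : d ≠ 2 → rM w = 1 := fun hd => Units.ext (by
    rw [ha, hda.resolve_left hd, hu0, Units.val_one])
  have hev : (eJ * w * eJ : CJ F).1 ∈ M := mul_mem (mul_mem hE hwM) hE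
  have hrev : d ≠ 2 → rM (w * (eJ * w * eJ)) = 1 := fun hd => by
    rw [map_mul, map_mul, map_mul, hr1 hd, one_mul, mul_one]
    exact Units.ext (by rw [Units.val_mul, rM_eJ]; ext i j; fin_cases i <;> fin_cases j <;> simp)
  fin_cases d
  · -- weight zero
    have hd0 : L = 0 := by
      have hdiag : L = diagonal ![L 0 0, L 1 1, L 2 2] := by
        ext i j
        fin_cases i <;> fin_cases j <;> simp <;> exact hL _ _ (by decide)
      rw [hdiag, diagonal_mul_diagonal, diagonal_mul_diagonal, ← diagonal_zero,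
        diagonal_eq_diagonal_iff] at hL3
      have c0 := hL3 0; have c1 := hL3 1; have c2 := hL3 2
      simp at c0 c1 c2
      rw [hdiag, c0, c1, c2]
      ext i j; fin_cases i <;> fin_cases j <;> simp
    refine eq_of_blocks h2 (by rw [map_one]; exact hr1 (by decide)) (Units.ext ?_)
    rw [map_one, hP, hd0]; simp
  · -- weight one
    obtain ⟨α, β, hLf⟩ : ∃ α β, L = !![0, 0, α; β, 0, 0; 0, 0, 0] := ⟨L 0 2, L 1 0, by
      ext i j; fin_cases i <;> fin_cases j <;> simp <;> exact hL _ _ (by decide)⟩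
    have hPf : (rP w : Matrix (Fin 3) (Fin 3) F) = !![1, 0, α; β, 1, α * β / 2; 0, 0, 1] := by
      rw [hP, hLf]
      ext i j; fin_cases i <;> fin_cases j <;> simp [Matrix.mul_apply, Fin.sum_univ_three] <;> ring
    have h := H.eq_one_of_transv3 (g := w * (eJ * w * eJ)) (mul_mem hwM hev) (hrev (by decide))
      ![2 * α, α * β, 0] ![0, 0, 1] (by
        simp only [map_mul, Units.val_mul, rP_eJ, hPf]
        ext i j; fin_cases i <;> fin_cases j <;>
          simp [Matrix.mul_apply, Fin.sum_univ_three, vecMulVec] <;> ring)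
    have hα : α = 0 := by
      have := congrFun (congrFun (congrArg (fun g => (rP g : Matrix (Fin 3) (Fin 3) F)) h) 0) 2
      simp [hPf, rP_eJ, Matrix.mul_apply, Fin.sum_univ_three] at this
      exact mul_left_cancel₀ h2 (by linear_combination this)
    refine H.eq_one_of_transv3 hwM (hr1 (by decide)) ![0, β, 0] ![1, 0, 0] ?_
    rw [hPf, hα]
    ext i j; fin_cases i <;> fin_cases j <;> simp [vecMulVec]
  · -- weight two
    obtain ⟨s, hLf⟩ : ∃ s, L = !![0, 0, 0; 0, 0, s; 0, 0, 0] := ⟨L 1 2, by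
      ext i j; fin_cases i <;> fin_cases j <;> simp <;> exact hL _ _ (by decide)⟩
    have hPf : (rP w : Matrix (Fin 3) (Fin 3) F) = !![1, 0, 0; 0, 1, s; 0, 0, 1] := by
      rw [hP, hLf]
      ext i j; fin_cases i <;> fin_cases j <;> simp [Matrix.mul_apply, Fin.sum_univ_three]
    have hw5 := CJ_matrix h2 w
    rw [ha, hPf] at hw5
    have hσ : gE03 ∈ M := by rw [gE03_eq]; exact mul_mem (mul_mem (pow_mem H.hA _) hE) H.hA
    have h := H.nt ((w : GL (Fin 5) F) * (gE03 * (w : GL (Fin 5) F) * gE03))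
      (mul_mem hwM (mul_mem (mul_mem hσ hwM) hσ)) ![0, s + a, 0, 0, s - a] ![0, 0, 1, 0, 0] (by
        simp only [Units.val_mul, hw5, val_gE03]
        exact rank_one_product h2 s a)
    have hz := congrArg Units.val h
    simp only [Units.val_mul, Units.val_one, hw5, val_gE03] at hz
    rw [rank_one_product h2 s a, add_eq_left] at hz
    have h12 := congrFun (congrFun hz 1) 2
    have h42 := congrFun (congrFun hz 4) 2
    simp [vecMulVec] at h12 h42
    have hs : s = 0 := mul_left_cancel₀ h2 (by linear_combination h12 + h42)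
    have ha0 : a = 0 := mul_left_cancel₀ h2 (by linear_combination h12 - h42)
    refine eq_of_blocks h2 (Units.ext ?_) (Units.ext ?_)
    · rw [map_one, ha, ha0, hu0, Units.val_one]
    · rw [map_one, hPf, hs, Units.val_one]; ext i j; fin_cases i <;> fin_cases j <;> simp
  · -- weight three
    obtain ⟨s, hLf⟩ : ∃ s, L = !![0, 0, 0; 0, 0, 0; 0, s, 0] := ⟨L 2 1, by
      ext i j; fin_cases i <;> fin_cases j <;> simp <;> exact hL _ _ (by decide)⟩
    refine H.eq_one_of_transv3 hwM (hr1 (by decide)) ![0, 0, s] ![0, 1, 0] ?_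
    rw [hP, hLf]
    ext i j; fin_cases i <;> fin_cases j <;> simp [Matrix.mul_apply, Fin.sum_univ_three, vecMulVec]
  · -- weight four
    obtain ⟨γ, δ, hLf⟩ : ∃ γ δ, L = !![0, γ, 0; 0, 0, 0; δ, 0, 0] := ⟨L 0 1, L 2 0, by
      ext i j; fin_cases i <;> fin_cases j <;> simp <;> exact hL _ _ (by decide)⟩
    have hPf : (rP w : Matrix (Fin 3) (Fin 3) F) = !![1, γ, 0; 0, 1, 0; δ, δ * γ / 2, 1] := by
      rw [hP, hLf]
      ext i j; fin_cases i <;> fin_cases j <;> simp [Matrix.mul_apply, Fin.sum_univ_three] <;> ring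
    have h := H.eq_one_of_transv3 (g := w * (eJ * w * eJ)) (mul_mem hwM hev) (hrev (by decide))
      ![0, 0, 1] ![2 * δ, -(δ * γ), 0] (by
        simp only [map_mul, Units.val_mul, rP_eJ, hPf]
        ext i j; fin_cases i <;> fin_cases j <;>
          simp [Matrix.mul_apply, Fin.sum_univ_three, vecMulVec] <;> ring)
    have hδ : δ = 0 := by
      have := congrFun (congrFun (congrArg (fun g => (rP g : Matrix (Fin 3) (Fin 3) F)) h) 2) 0
      simp [hPf, rP_eJ, Matrix.mul_apply, Fin.sum_univ_three] at this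
      exact mul_left_cancel₀ h2 (by linear_combination this)
    refine H.eq_one_of_transv3 hwM (hr1 (by decide)) ![1, 0, 0] ![0, γ, 0] ?_
    rw [hPf, hδ]
    ext i j; fin_cases i <;> fin_cases j <;> simp [vecMulVec]

end Hyp

end Cfsg.Agent.MaxSub.CSixFive
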