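import Cfsg.Agent.MaxSub.CSixFive.Homog

/-!
The kernel of the representation of `C_M(J)` on the `-1`-space is trivial.
-/

set_option autoImplicit false
set_option linter.unusedSectionVars false
set_option linter.unusedSimpArgs false
set_option linter.style.haveILetI false

namespace Cfsg.Agent.MaxSub.CSixFive

open Matrix Cfsg.Geo Cfsg.Agent.MaxSub
open scoped MatrixGroups Fin.CommRing Fin.NatCast Cfsg.Agent.MaxSub.Dickson

section conjAut

variable {G : Type*} [Group G] {K : Subgroup G} {t : G}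

theorem conj_pow_mem (h : ∀ k ∈ K, t * k * t⁻¹ ∈ K) (n : ℕ) {k : G} (hk : k ∈ K) :
    t ^ n * k * (t ^ n)⁻¹ ∈ K := by
  induction n with
  | zero => simpa using hk
  | succ n ih => simpa [pow_succ', mul_assoc] using h _ ih

/-- Conjugation by an element of order dividing five, on a subgroup it normalises. -/
def conjAut (h : ∀ k ∈ K, t * k * t⁻¹ ∈ K) (h5 : t ^ 5 = 1) : MulAut K where
  toFun k := ⟨t * k * t⁻¹, h k k.2⟩
  invFun k := ⟨t ^ 4 * k * (t ^ 4)⁻¹, conj_pow_mem h 4 k.2⟩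
  left_inv k := Subtype.ext (by
    show t ^ 4 * (t * k * t⁻¹) * (t ^ 4)⁻¹ = k
    rw [show t ^ 4 * (t * (k : G) * t⁻¹) * (t ^ 4)⁻¹ = t ^ 5 * k * (t ^ 5)⁻¹ by group, h5]
    simp)
  right_inv k := Subtype.ext (by
    show t * (t ^ 4 * k * (t ^ 4)⁻¹) * t⁻¹ = k
    rw [show t * (t ^ 4 * (k : G) * (t ^ 4)⁻¹) * t⁻¹ = t ^ 5 * k * (t ^ 5)⁻¹ by group, h5]
    simp)
  map_mul' a b := Subtype.ext (by simp [mul_assoc])

theorem conjAut_apply (h : ∀ k ∈ K, t * k * t⁻¹ ∈ K) (h5 : t ^ 5 = 1) (k : K) :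
    ((conjAut h h5 k : K) : G) = t * k * t⁻¹ := rfl

theorem conjAut_pow (h : ∀ k ∈ K, t * k * t⁻¹ ∈ K) (h5 : t ^ 5 = 1) (n : ℕ) (k : K) :
    (((conjAut h h5 ^ n) k : K) : G) = t ^ n * k * (t ^ n)⁻¹ := by
  induction n with
  | zero => simp
  | succ n ih => rw [pow_succ', MulAut.mul_apply, conjAut_apply, ih]; simp [pow_succ', mul_assoc]

theorem conjAut_pow_five (h : ∀ k ∈ K, t * k * t⁻¹ ∈ K) (h5 : t ^ 5 = 1) : conjAut h h5 ^ 5 = 1 := by
  ext k
  rw [conjAut_pow, h5]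
  simp

end conjAut

variable {F : Type*} [Field F]

/-- The projective representation on the `-1`-space. -/
def pM : CJ F →* PGL(2, F) := ProjGenLinGroup.mk.comp rM

/-- `C_M(J)`. -/
def DJ (M : Subgroup (GL (Fin 5) F)) : Subgroup (CJ F) := M.subgroupOf (CJ F)

theorem mem_DJ {M : Subgroup (GL (Fin 5) F)} {g : CJ F} : g ∈ DJ M ↔ (g : GL (Fin 5) F) ∈ M := Iff.rfl

/-- The kernel on the `-1`-space. -/
def K3 (M : Subgroup (GL (Fin 5) F)) : Subgroup (CJ F) := DJ M ⊓ rM.ker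

variable [Fintype F] {R : Root5 F} {M : Subgroup (GL (Fin 5) F)}

/-- The upper unitriangular group. -/
def UU (F : Type*) [Field F] [Fintype F] : Subgroup (GL (Fin 2) F) where
  carrier := {g | ∃ a, (g : Matrix (Fin 2) (Fin 2) F) = u2 a}
  one_mem' := ⟨0, by ext i j; fin_cases i <;> fin_cases j <;> simp [u2]⟩
  mul_mem' := by
    rintro g h ⟨a, ha⟩ ⟨b, hb⟩
    exact ⟨a + b, by rw [Units.val_mul, ha, hb, u2_mul]⟩
  inv_mem' := by
    rintro g ⟨a, ha⟩
    refine ⟨-a, ?_⟩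
    have h : (g : Matrix (Fin 2) (Fin 2) F) * u2 (-a) = 1 := by
      rw [ha, u2_mul, add_neg_cancel]
      ext i j; fin_cases i <;> fin_cases j <;> simp [u2]
    exact Units.inv_eq_of_mul_eq_one_right h

/-- The elements upper unitriangular on the `-1`-space. -/
def Gu (M : Subgroup (GL (Fin 5) F)) : Subgroup (CJ F) := DJ M ⊓ (UU F).comap rM

/-- A sum of commuting periodic matrices is periodic. -/
theorem sum_pow_fixed {ι : Type*} {p : ℕ} [Fact p.Prime] [CharP F p] {m : ℕ} (s : Finset ι)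
    (Z : ι → Matrix (Fin 3) (Fin 3) F) (hc : ∀ i j, Commute (Z i) (Z j))
    (hZ : ∀ i, Z i ^ (p ^ m) = Z i) (c : ι → F) (hcF : ∀ i, c i ^ (p ^ m) = c i) :
    (∑ i ∈ s, c i • Z i) ^ (p ^ m) = ∑ i ∈ s, c i • Z i := by
  classical
  induction s using Finset.induction_on with
  | empty =>
    simp only [Finset.sum_empty]
    exact zero_pow (pow_ne_zero _ (Fact.out : p.Prime).ne_zero)
  | insert a s ha ih =>
    rw [Finset.sum_insert ha, add_pow_char_pow_of_commute (p := p), ih, smul_pow, hZ, hcF]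
    exact Commute.sum_right _ _ _ fun i _ => ((hc a i).smul_left _).smul_right _

/-- A matrix commuting with the weights is diagonal. -/
theorem diag_of_commute_wt (R : Root5 F) {G : Matrix (Fin 3) (Fin 3) F}
    (h : G * diagonal (fun i => R.e (wt i)) = diagonal (fun i => R.e (wt i)) * G) :
    G = diagonal ![G 0 0, G 1 1, G 2 2] := by
  have key : ∀ i j, i ≠ j → G i j = 0 := by
    intro i j hij
    have h' := congrFun (congrFun h i) j
    rw [mul_diagonal, diagonal_mul] at h'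
    refine (mul_eq_zero.1 (show (R.e (wt j) - R.e (wt i)) * G i j = 0 by
      linear_combination h')).resolve_left ?_
    exact R.e_pow_two_ne ((by decide : ∀ i j : Fin 3, i ≠ j → wt j ≠ wt i) i j hij)
  ext i j
  fin_cases i <;> fin_cases j <;> simp <;> exact key _ _ (by decide)

namespace Hyp

variable (H : Hyp R M)
include H

theorem tJ_mem : R.tJ ∈ DJ M := H.hT
theorem sJ_mem : sJ ∈ DJ M := H.hS
theorem yJ_mem : R.yJ ∈ DJ M := mul_mem (inv_mem (show R.uJ ∈ DJ M from H.hU)) H.tJ_mem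

theorem Gu_conj_tJ : ∀ k ∈ Gu M, R.tJ * k * R.tJ⁻¹ ∈ Gu M := by
  rintro k ⟨hk, a, ha⟩
  refine ⟨(DJ M).mul_mem ((DJ M).mul_mem H.tJ_mem hk) ((DJ M).inv_mem H.tJ_mem), R.e 2 * a, ?_⟩
  rw [map_mul, map_mul, map_inv]
  suffices h : rM R.tJ * rM k = uGL (R.e 2 * a) * rM R.tJ by
    rw [h, mul_inv_cancel_right, val_uGL]
  refine Units.ext ?_
  rw [Units.val_mul, Units.val_mul, R.rM_tJ, ha, val_uGL]
  ext i j
  fin_cases i <;> fin_cases j <;> simp [u2, Matrix.mul_apply]
  rw [mul_right_comm, ← R.e_add]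
  rfl

theorem K3_conj {g : CJ F} (hg : g ∈ DJ M) : ∀ k ∈ K3 M, g * k * g⁻¹ ∈ K3 M := fun k hk =>
  ⟨(DJ M).mul_mem ((DJ M).mul_mem hg hk.1) ((DJ M).inv_mem hg), (MonoidHom.normal_ker _).conj_mem k hk.2 g⟩

theorem fixed_sq {k : CJ F} (hk : k ∈ K3 M) (hc : Commute k R.tJ) : k * k = 1 := by
  have h2 := R.two
  have hP := congrArg (fun g => (rP g : Matrix (Fin 3) (Fin 3) F)) hc.eq
  simp only [map_mul, Units.val_mul, R.rP_tJ_wt] at hP
  have hd := diag_of_commute_wt R hP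
  have hM1 : rM k = 1 := hk.2
  have hm := CJ_matrix h2 k
  rw [hM1, Units.val_one, hd] at hm
  set a := (rP k : Matrix (Fin 3) (Fin 3) F) 0 0
  set b := (rP k : Matrix (Fin 3) (Fin 3) F) 1 1
  set c := (rP k : Matrix (Fin 3) (Fin 3) F) 2 2
  have hT : Commute (k : GL (Fin 5) F) R.gT := congrArg Subtype.val hc.eq
  have hb := H.mul_eq_zero_one (g := (k : GL (Fin 5) F)) hk.1 hT (mem_CJ.1 k.2)
  have hc' := H.mul_eq_zero_two (g := (k : GL (Fin 5) F)) hk.1 hT (mem_CJ.1 k.2)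
  rw [hm] at hb hc'
  simp [mat5] at hb hc'
  have hb2 : b * b = 1 := by
    rcases hb with (h | h) | (h | h) <;>
      first | exact absurd h h2 | linear_combination (b - 1) * h | linear_combination (b + 1) * h
  have hc2 : c * c = 1 := by
    rcases hc' with (h | h) | (h | h) <;>
      first | exact absurd h h2 | linear_combination (c - 1) * h | linear_combination (c + 1) * h
  have hkk : ((k * k : CJ F) : GL (Fin 5) F).1 = diagonal ![a * a, 1, 1, 1, 1] := by
    rw [CJ_matrix h2, map_mul, map_mul, hM1, one_mul, Units.val_one, Units.val_mul, hd,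
      diagonal_mul_diagonal]
    ext i j
    fin_cases i <;> fin_cases j <;> simp [mat5, a, b, c, hb2, hc2] <;> field_simp <;> ring
  have hdet := GeoClasses.mem_specialLinear_iff.1 (H.le (show ((k * k : CJ F) : GL (Fin 5) F) ∈ M
    from mul_mem hk.1 hk.1))
  rw [hkk, det_diagonal, Fin.prod_univ_five] at hdet
  simp at hdet
  refine Subtype.ext (Units.ext ?_)
  rw [hkk, hdet]
  ext i j
  fin_cases i <;> fin_cases j <;> simp

theorem fixed_eq_one (hE : gE ∉ M) {k : CJ F} (hk : k ∈ K3 M) (hc : Commute k R.tJ) : k = 1 := by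
  refine Subtype.ext ((H.eq_one_or_gE hk.1 (congrArg Subtype.val hc.eq) (mem_CJ.1 k.2) ?_).resolve_right hE)
  have h : rM k = 1 := hk.2
  show matM ((k : GL (Fin 5) F) : Matrix (Fin 5) (Fin 5) F) = 1
  rw [← val_rM, h, Units.val_one]

theorem five_not_dvd_K3 : ¬ 5 ∣ Nat.card (K3 M) := by
  intro h5
  haveI : Fact (Nat.Prime 2) := ⟨Nat.prime_two⟩
  have h := card_fixed_modEq (conjAut (H.K3_conj H.tJ_mem) R.tJ_pow_five) (conjAut_pow_five _ _)
  have he : Nat.card {g : K3 M | conjAut (H.K3_conj H.tJ_mem) R.tJ_pow_five g = g} =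
      Nat.card (K3 M ⊓ Subgroup.centralizer {R.tJ} : Subgroup (CJ F)) := by
    refine Nat.card_eq_of_bijective (fun g => ⟨(g.1 : CJ F), g.1.2, ?_⟩) ⟨?_, ?_⟩
    · show (g.1 : CJ F) ∈ Subgroup.centralizer {R.tJ}
      rw [Subgroup.mem_centralizer_singleton_iff]
      have := congrArg Subtype.val (show conjAut _ _ g.1 = g.1 from g.2)
      rw [conjAut_apply, mul_inv_eq_iff_eq_mul] at this
      exact this.symm
    · intro a b e
      exact Subtype.ext (Subtype.ext (congrArg Subtype.val e :))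
    · rintro ⟨g, hg, hc⟩
      refine ⟨⟨⟨g, hg⟩, Subtype.ext ?_⟩, rfl⟩
      rw [conjAut_apply, mul_inv_eq_iff_eq_mul]
      exact (Subgroup.mem_centralizer_singleton_iff.1 hc).symm
  have hp2 : IsPGroup 2 (K3 M ⊓ Subgroup.centralizer {R.tJ} : Subgroup (CJ F)) := by
    rintro ⟨g, hg, hc⟩
    refine ⟨1, Subtype.ext ?_⟩
    show g ^ (2 ^ 1) = 1
    rw [pow_one, sq]
    exact H.fixed_sq hg (Subgroup.mem_centralizer_singleton_iff.1 hc)
  obtain ⟨n, hn⟩ := IsPGroup.iff_card.1 hp2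
  rw [he, hn] at h
  have h0 : 2 ^ n % 5 = 0 := by
    unfold Nat.ModEq at h
    rw [← h]; exact Nat.mod_eq_zero_of_dvd h5
  have := (Nat.Prime.dvd_of_dvd_pow (by norm_num : Nat.Prime 5) (Nat.dvd_of_mod_eq_zero h0))
  norm_num at this

theorem five_not_dvd_Gu : ¬ 5 ∣ Nat.card (Gu M) := by
  haveI : Fact (Fintype.card F).Prime := ⟨H.prime⟩
  haveI : Fact (Nat.Prime 5) := ⟨by norm_num⟩
  let f : Gu M →* GL (Fin 2) F := rM.comp (Gu M).subtype
  have hker : f.ker.map (Gu M).subtype = K3 M := by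
    ext g
    constructor
    · rintro ⟨x, hx, rfl⟩
      exact ⟨x.2.1, hx⟩
    · intro hg
      exact ⟨⟨g, hg.1, 0, by
        rw [show rM g = 1 from hg.2, Units.val_one]
        ext i j; fin_cases i <;> fin_cases j <;> simp [u2]⟩, hg.2, rfl⟩
  have hpg : IsPGroup (Fintype.card F) f.range := by
    rintro ⟨g, x, rfl⟩
    obtain ⟨a, ha⟩ := x.2.2
    refine ⟨1, Subtype.ext (Units.ext ?_)⟩
    show ((f x ^ (Fintype.card F) ^ 1 : GL (Fin 2) F) : Matrix (Fin 2) (Fin 2) F) = 1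
    rw [pow_one, Units.val_pow_eq_pow_val, show (f x : Matrix (Fin 2) (Fin 2) F) = u2 a from ha,
      u2_pow, FiniteField.cast_card_eq_zero, zero_mul]
    ext i j; fin_cases i <;> fin_cases j <;> simp [u2]
  obtain ⟨n, hn⟩ := IsPGroup.iff_card.1 hpg
  intro h5
  rw [← f.ker.card_mul_index, Subgroup.index_ker] at h5
  rcases (Nat.Prime.dvd_mul (by norm_num : Nat.Prime 5)).1 h5 with h | h
  · refine H.five_not_dvd_K3 ?_
    rwa [← hker, Subgroup.card_map_of_injective (Gu M).subtype_injective]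
  · rw [hn] at h
    have h' := (Nat.prime_dvd_prime_iff_eq (by norm_num : Nat.Prime 5) H.prime).1
      (Nat.Prime.dvd_of_dvd_pow (by norm_num) h)
    have := R.five_dvd_card
    omega

/-- An element of `C_M(J)` inducing `u(1)`. -/
theorem exists_u (hd : Fintype.card F ∣ Nat.card ((DJ M).map pM)) :
    ∃ l ∈ DJ M, (rM l : Matrix (Fin 2) (Fin 2) F) = u2 1 := by
  classical
  have hle : Dickson.lsub F ≤ (DJ M).map pM := by
    refine Plane.lsub_le H.prime H.h7 hd ?_
    rintro ⟨x, hx⟩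
    exact Plane.no_fixed_point R.rM_tJ (fun e => absurd (R.e_inj e) (by decide))
      (show (rM (sJ : CJ F) : Matrix (Fin 2) (Fin 2) F) = !![0, 1; -1, 0] from rM_gS) x
      (hx _ (Subgroup.mem_map_of_mem _ H.tJ_mem)) (hx _ (Subgroup.mem_map_of_mem _ H.sJ_mem))
  obtain ⟨m, hm, e⟩ := hle (mk_uGL_mem (1 : F))
  obtain ⟨c, hc, hmc⟩ := exists_smul_of_mk_eq e
  rw [val_uGL] at hmc
  exact ⟨m ^ pPrime F, pow_mem hm _, by
    rw [map_pow, Units.val_pow_eq_pow_val, pow_pPrime_of_smul_u2 hc hmc]⟩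

theorem dvd_Gu (hd : Fintype.card F ∣ Nat.card (DJ M)) : Fintype.card F ∣ Nat.card (Gu M) := by
  classical
  haveI : Fact (Fintype.card F).Prime := ⟨H.prime⟩
  have hsuff : ∀ g ∈ Gu M, Fintype.card F ∣ orderOf g → Fintype.card F ∣ Nat.card (Gu M) := by
    intro g hg hd
    refine hd.trans ?_
    rw [← Subgroup.orderOf_mk g hg]
    exact _root_.orderOf_dvd_natCard _
  obtain ⟨⟨z, hzD⟩, hz⟩ := exists_prime_orderOf_dvd_card' (G := DJ M) _ hd
  rw [Subgroup.orderOf_mk] at hz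
  by_cases hz1 : pM z = 1
  · refine hsuff z ⟨hzD, 0, ?_⟩ hz.symm.dvd
    obtain ⟨c, -, e⟩ := exists_smul_one_of_mk (A := rM z) hz1
    have hp := congrArg (fun g => (rM g : Matrix (Fin 2) (Fin 2) F)) (pow_orderOf_eq_one z)
    simp only [hz, map_pow, map_one, Units.val_pow_eq_pow_val, Units.val_one, e, smul_pow, one_pow,
      FiniteField.pow_card] at hp
    rw [e, hp]
    ext i j; fin_cases i <;> fin_cases j <;> simp [u2]
  · have hP : Fintype.card F ∣ Nat.card ((DJ M).map pM) := by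
      have ho : orderOf (pM z) = Fintype.card F := orderOf_eq_prime
        (by rw [← map_pow, ← hz, pow_orderOf_eq_one, map_one]) hz1
      rw [← ho, ← Subgroup.orderOf_mk (pM z) (Subgroup.mem_map_of_mem _ hzD)]
      exact _root_.orderOf_dvd_natCard _
    obtain ⟨l, hl, hlu⟩ := H.exists_u hP
    refine hsuff l ⟨hl, 1, hlu⟩ ?_
    refine dvd_trans ?_ (orderOf_map_dvd rM l)
    rw [orderOf_eq_prime (p := Fintype.card F) (Units.ext ?_) ?_]
    · rw [Units.val_pow_eq_pow_val, hlu, u2_pow, FiniteField.cast_card_eq_zero, zero_mul,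
        Units.val_one]
      ext i j; fin_cases i <;> fin_cases j <;> simp [u2]
    · intro h
      rw [Units.ext_iff, hlu, Units.val_one] at h
      have := congrFun (congrFun h 0) 1
      simp [u2] at this

theorem not_dvd_of_gE (hE : gE ∈ M) : ¬ Fintype.card F ∣ Nat.card (DJ M) := by
  classical
  intro hd
  haveI : Fact (Fintype.card F).Prime := ⟨H.prime⟩
  obtain ⟨A, hA, hcomm, hne, hinv⟩ := exists_invariant_abelian
    (conjAut H.Gu_conj_tJ R.tJ_pow_five) (conjAut_pow_five _ _) H.five_not_dvd_Gu _ (H.dvd_Gu hd)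
  letI : CommGroup A := { (inferInstance : Group A) with
    mul_comm := fun a b => Subtype.ext (hcomm a a.2 b b.2) }
  let Ω : Subgroup A := (powMonoidHom (Fintype.card F) : A →* A).ker
  have hΩ : ∀ a : A, a ∈ Ω ↔ a ^ Fintype.card F = 1 := fun a => Iff.rfl
  obtain ⟨z, hz⟩ : ∃ z : A, orderOf z = Fintype.card F := by
    obtain ⟨n, hn⟩ := IsPGroup.iff_card.1 hA
    refine exists_prime_orderOf_dvd_card' _ ?_
    rw [hn]
    refine dvd_pow_self _ fun h0 => hne ?_
    rw [h0, pow_zero] at hn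
    exact Subgroup.card_eq_one.1 hn
  let φA : A →* A :=
    { toFun := fun a => ⟨conjAut H.Gu_conj_tJ R.tJ_pow_five a.1, hinv a.1 a.2⟩
      map_one' := Subtype.ext (map_one _)
      map_mul' := fun a b => Subtype.ext (map_mul _ _ _) }
  let φΩ : Ω →* Ω :=
    { toFun := fun a => ⟨φA a.1, (hΩ _).2 (by rw [← map_pow, (hΩ _).1 a.2, map_one])⟩
      map_one' := Subtype.ext (map_one φA)
      map_mul' := fun a b => Subtype.ext (map_mul φA _ _) }
  have h5 : ∀ a, φΩ (φΩ (φΩ (φΩ (φΩ a)))) = a := by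
    intro a
    refine Subtype.ext (Subtype.ext ?_)
    have := DFunLike.congr_fun (conjAut_pow_five H.Gu_conj_tJ R.tJ_pow_five) (a.1.1 : Gu M)
    simp only [pow_succ, pow_zero, one_mul, MulAut.mul_apply, MulAut.one_apply] at this
    exact this
  obtain ⟨w, d, k, hw1, hk, hwk⟩ := exists_eigen (F := F) R H.prime φΩ h5
    (z := ⟨z, (hΩ z).2 (by rw [← hz, pow_orderOf_eq_one])⟩)
    (fun a => Subtype.ext ((hΩ a.1).1 a.2)) (fun h => by
      have hz1 : z = 1 := congrArg Subtype.val h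
      rw [hz1, orderOf_one] at hz
      exact H.prime.one_lt.ne hz)
  have e : R.tJ * (w.1.1.1 : CJ F) * R.tJ⁻¹ = (w.1.1.1 : CJ F) ^ k := by
    have := congrArg (fun a : Ω => (a.1.1.1 : CJ F)) hwk
    simpa [φΩ, φA, conjAut_apply] using this
  have hp : (w.1.1.1 : CJ F) ^ Fintype.card F = 1 := by
    have := congrArg (fun a : A => (a.1.1 : CJ F)) ((hΩ w.1).1 w.2)
    simpa using this
  obtain ⟨a, ha⟩ := w.1.1.2.2
  exact hw1 (Subtype.ext (Subtype.ext (Subtype.ext
    (H.homog_eq_one hE w.1.1.2.1 ha hp hk e))))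

theorem tJ_yJ_noncomm : pM R.tJ * pM R.yJ ≠ pM R.yJ * pM R.tJ := by
  intro h
  obtain ⟨q0, q1⟩ := R.rM_qJ_ne
  rw [← map_mul, ← map_mul] at h
  obtain ⟨l, -, e⟩ := exists_smul_of_mk_eq h
  have hY : rM R.yJ * rM R.qJ = rM R.qJ * rM R.tJ := by
    rw [← map_mul, ← map_mul, R.yJ_eq, inv_mul_cancel_right]
  simp only [map_mul, Units.val_mul] at e
  have hY' := congrArg Units.val hY
  simp only [Units.val_mul, R.rM_tJ] at hY' e
  have htr : (rM R.yJ : Matrix (Fin 2) (Fin 2) F).trace = R.e 1 + R.e 4 := by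
    rw [R.yJ_eq, map_mul, map_mul, map_inv, Units.val_mul, Units.val_mul, Matrix.trace_units_conj,
      R.rM_tJ, trace_fin_two]
    simp
  set Y := (rM R.yJ : Matrix (Fin 2) (Fin 2) F)
  set q := (rM R.qJ : Matrix (Fin 2) (Fin 2) F)
  rw [trace_fin_two] at htr
  have a00 := congrFun (congrFun e 0) 0
  have a01 := congrFun (congrFun e 0) 1
  have a11 := congrFun (congrFun e 1) 1
  have b00 := congrFun (congrFun hY' 0) 0
  have b01 := congrFun (congrFun hY' 0) 1
  simp [Matrix.mul_apply] at a00 a01 a11 b00 b01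
  have hl : l = 1 := by
    have c0 : (1 - l) * Y 0 0 = 0 :=
      (mul_eq_zero.1 (show R.e 1 * ((1 - l) * Y 0 0) = 0 by linear_combination a00)).resolve_left
        (R.e_ne _)
    have c1 : (1 - l) * Y 1 1 = 0 :=
      (mul_eq_zero.1 (show R.e 4 * ((1 - l) * Y 1 1) = 0 by linear_combination a11)).resolve_left
        (R.e_ne _)
    rcases mul_eq_zero.1 (show (1 - l) * (Y 0 0 + Y 1 1) = 0 by linear_combination c0 + c1) with h | h
    · exact (sub_eq_zero.1 h).symm
    · exact absurd (htr ▸ h) (R.e_add_ne _ _)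
  have hY01 : Y 0 1 = 0 := (mul_eq_zero.1 (show (R.e 1 - R.e 4) * Y 0 1 = 0 by
    rw [hl] at a01; linear_combination a01)).resolve_left (R.e_pow_two_ne (by decide))
  rw [hY01] at b00 b01
  have d0 : Y 0 0 = R.e 1 := mul_right_cancel₀ q0 (by linear_combination b00)
  have d1 : Y 0 0 = R.e 4 := mul_right_cancel₀ q1 (by linear_combination b01)
  exact absurd (R.e_inj (d0.symm.trans d1)) (by decide)

theorem orderOf_pM_tJ : orderOf (pM R.tJ) = 5 :=
  orderOf_mk_diag R.rM_tJ (fun e => absurd (R.e_inj e) (by decide)) (R.pow_e _) (R.pow_e _)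

theorem orderOf_pM_yJ : orderOf (pM R.yJ) = 5 := by
  rw [R.yJ_eq, map_mul, map_mul, map_inv, ← MulAut.conj_apply, MulEquiv.orderOf_eq, H.orderOf_pM_tJ]

/-- The structure of the image when its order is prime to `p`. -/
theorem image_a5 (hd : ¬ Fintype.card F ∣ Nat.card ((DJ M).map pM)) :
    Nat.card ((DJ M).map pM) = 60 ∧ Subgroup.closure {pM R.tJ, pM R.yJ} = (DJ M).map pM ∧
      IsSimpleGroup ((DJ M).map pM) ∧
      ∀ e ∈ (DJ M).map pM, e * e = 1 → e * pM R.tJ = pM R.tJ * e → e = 1 := by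
  classical
  exact Plane.two_fives H.prime H.h7 hd (Subgroup.mem_map_of_mem _ H.tJ_mem)
    (Subgroup.mem_map_of_mem _ H.yJ_mem) H.orderOf_pM_tJ H.orderOf_pM_yJ H.tJ_yJ_noncomm

/-- The sign change is not in `M`. -/
theorem gE_not_mem : gE ∉ M := by
  intro hE
  have hd : ¬ Fintype.card F ∣ Nat.card ((DJ M).map pM) := fun h =>
    H.not_dvd_of_gE hE (h.trans (Subgroup.card_map_dvd _ _))
  obtain ⟨-, -, -, h⟩ := H.image_a5 hd
  have h1 := h (pM eJ) (Subgroup.mem_map_of_mem _ (show eJ ∈ DJ M from hE)) ?_ ?_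
  · obtain ⟨c, -, e⟩ := exists_smul_one_of_mk (A := rM (eJ : CJ F)) h1
    rw [rM_eJ] at e
    have e0 := congrFun (congrFun e 0) 0
    have e1 := congrFun (congrFun e 1) 1
    simp at e0 e1
    exact R.two (by linear_combination e1 - e0)
  · rw [← map_mul, ← map_one pM]
    refine congrArg _ (eq_of_blocks R.two (Units.ext ?_) (Units.ext ?_))
    · rw [map_mul, map_one, Units.val_mul, rM_eJ, Units.val_one]
      ext i j; fin_cases i <;> fin_cases j <;> simp
    · rw [map_mul, map_one, Units.val_mul, rP_eJ, Units.val_one]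
      ext i j; fin_cases i <;> fin_cases j <;> simp [Matrix.mul_apply, Fin.sum_univ_three]
  · refine (map_mul _ _ _).symm.trans ((congrArg ProjGenLinGroup.mk (Units.ext ?_)).trans (map_mul _ _ _))
    rw [map_mul, Units.val_mul]
    show (rM (eJ : CJ F) : Matrix (Fin 2) (Fin 2) F) * (rM R.tJ : Matrix (Fin 2) (Fin 2) F) =
      (rM R.tJ : Matrix (Fin 2) (Fin 2) F) * (rM (eJ : CJ F) : Matrix (Fin 2) (Fin 2) F)
    rw [rM_eJ, R.rM_tJ]
    ext i j; fin_cases i <;> fin_cases j <;> simp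

end Hyp

end Cfsg.Agent.MaxSub.CSixFive
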