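import Cfsg.Agent.MaxSub.CSixFive.Basic

/-!
Elements normalising the standard `5^{1+2}`.
-/

set_option autoImplicit false
set_option linter.unusedSectionVars false

namespace Cfsg.Agent.MaxSub.CSixFive

open Matrix
open scoped MatrixGroups Fin.CommRing Fin.NatCast

variable {F : Type*} [Field F] (R : Root5 F)

namespace Root5

theorem gZ_pow (c : Fin 5) : R.gZ ^ (c : ℕ) = R.el c 0 0 := by
  have h : ∀ n : ℕ, R.gZ ^ n = R.el (n : Fin 5) 0 0 := by
    intro n
    induction n with
    | zero => simp [R.el_zero]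
    | succ n ih => rw [pow_succ, ih, R.gZ_eq, R.el_mul]; simp
  simpa using h (c : ℕ)

theorem gX_pow (a : Fin 5) : R.gX ^ (a : ℕ) = R.el 0 a 0 := by
  have h : ∀ n : ℕ, R.gX ^ n = R.el 0 (n : Fin 5) 0 := by
    intro n
    induction n with
    | zero => simp [R.el_zero]
    | succ n ih => rw [pow_succ, ih, R.gX_eq, R.el_mul]; simp
  simpa using h (a : ℕ)

theorem gA_pow (b : Fin 5) : (gA : GL (Fin 5) F) ^ (b : ℕ) = R.el 0 0 b := by
  have h : ∀ n : ℕ, (gA : GL (Fin 5) F) ^ n = R.el 0 0 (n : Fin 5) := by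
    intro n
    induction n with
    | zero => simp [R.el_zero]
    | succ n ih => rw [pow_succ, ih, R.gA_eq, R.el_mul]; simp
  simpa using h (b : ℕ)

theorem el_split (c a b : Fin 5) :
    R.el c a b = R.gZ ^ (c : ℕ) * R.gX ^ (a : ℕ) * gA ^ (b : ℕ) := by
  rw [gZ_pow, gX_pow, gA_pow, el_mul, el_mul]; simp

theorem gZ_comm (g : GL (Fin 5) F) : Commute R.gZ g :=
  Units.ext (by simp [R.val_gZ])

theorem gZ_mem : R.gZ ∈ R.Rs := ⟨_, _, _, R.gZ_eq⟩

theorem gX_gA : R.gX * gA = R.gZ * (gA * R.gX) := by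
  rw [R.gX_eq, R.gA_eq, R.gZ_eq, R.el_mul, R.el_mul, R.el_mul]; simp

theorem gZ_mem_of {M : Subgroup (GL (Fin 5) F)} (hX : R.gX ∈ M) (hA : gA ∈ M) : R.gZ ∈ M := by
  rw [show R.gZ = R.gX * gA * (gA * R.gX)⁻¹ from eq_mul_inv_of_mul_eq R.gX_gA.symm]
  exact mul_mem (mul_mem hX hA) (inv_mem (mul_mem hA hX))

theorem Rs_le {M : Subgroup (GL (Fin 5) F)} (hX : R.gX ∈ M) (hA : gA ∈ M) : R.Rs ≤ M := by
  rintro g ⟨c, a, b, rfl⟩
  rw [el_split]
  exact mul_mem (mul_mem (pow_mem (R.gZ_mem_of hX hA) _) (pow_mem hX _)) (pow_mem hA _)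

theorem mem_normalizer_of_conj {g : GL (Fin 5) F} [Finite R.Rs] (hX : g * R.gX * g⁻¹ ∈ R.Rs)
    (hA : g * gA * g⁻¹ ∈ R.Rs) : g ∈ Subgroup.normalizer (R.Rs : Set (GL (Fin 5) F)) := by
  have hle : R.Rs ≤ R.Rs.comap (MulAut.conj g).toMonoidHom := R.Rs_le hX hA
  have heq : R.Rs.map (MulAut.conj g).toMonoidHom = R.Rs := by
    refine Subgroup.eq_of_le_of_card_ge (Subgroup.map_le_iff_le_comap.2 hle) ?_
    rw [Subgroup.card_map_of_injective (MulAut.conj g).injective]
  rw [Subgroup.mem_normalizer_iff]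
  intro h
  refine ⟨fun hh => hle hh, fun hh => ?_⟩
  rw [← heq] at hh
  obtain ⟨y, hy, e⟩ := hh
  simp at e
  rwa [← e]

instance finite_Rs : Finite R.Rs :=
  Finite.of_surjective (fun x : Fin 5 × Fin 5 × Fin 5 => (⟨R.el x.1 x.2.1 x.2.2, R.el_mem _ _ _⟩ : R.Rs))
    fun ⟨_, c, a, b, e⟩ => ⟨⟨c, a, b⟩, Subtype.ext e.symm⟩

theorem conj_mem_of_mul {g h k : GL (Fin 5) F} (hk : k ∈ R.Rs) (e : g * h = k * g) :
    g * h * g⁻¹ ∈ R.Rs := by rwa [e, mul_inv_cancel_right]

theorem gA_normalizer : gA ∈ Subgroup.normalizer (R.Rs : Set (GL (Fin 5) F)) :=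
  Subgroup.le_normalizer R.gA_mem

theorem gX_normalizer : R.gX ∈ Subgroup.normalizer (R.Rs : Set (GL (Fin 5) F)) :=
  Subgroup.le_normalizer R.gX_mem

theorem gJ_normalizer : gJ ∈ Subgroup.normalizer (R.Rs : Set (GL (Fin 5) F)) := by
  refine R.mem_normalizer_of_conj (R.conj_mem_of_mul (R.el_mem 0 (-1) 0) ?_)
    (R.conj_mem_of_mul (R.el_mem 0 0 (-1)) ?_)
  · refine Units.ext (Matrix.ext fun i j => ?_)
    rw [R.gX_eq]
    simp only [Units.val_mul, gJ_mul_apply, mul_gJ_apply, el_apply, add_zero, zero_add]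
    by_cases h : -i = j
    · rw [if_pos h, if_pos (by rw [← h, neg_neg])]; congr 1; linear_combination (0 : Fin 5) * h
    · rw [if_neg h, if_neg (fun e => h (by rw [e, neg_neg]))]
  · refine Units.ext (Matrix.ext fun i j => ?_)
    rw [R.gA_eq]
    simp only [Units.val_mul, gJ_mul_apply, mul_gJ_apply, el_apply, zero_mul, add_zero]
    refine if_congr ⟨fun h => ?_, fun h => ?_⟩ rfl rfl <;> linear_combination -h

theorem gT_normalizer : R.gT ∈ Subgroup.normalizer (R.Rs : Set (GL (Fin 5) F)) := by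
  refine R.mem_normalizer_of_conj ?_ (R.conj_mem_of_mul (R.el_mem (-1) 2 1) ?_)
  · rw [R.commute_gT_gX.eq, mul_inv_cancel_right]; exact R.gX_mem
  · refine Units.ext (Matrix.ext fun i j => ?_)
    simp only [Units.val_mul, gT, val_dG, diagonal_mul, mul_diagonal, el_apply, val_gA]
    by_cases h : i = j + 1
    · rw [if_pos h, if_pos h, mul_one, ← e_add, h]; congr 1; ring
    · rw [if_neg h, if_neg h, mul_zero, zero_mul]

theorem gS_normalizer : gS ∈ Subgroup.normalizer (R.Rs : Set (GL (Fin 5) F)) := by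
  refine R.mem_normalizer_of_conj (R.conj_mem_of_mul (R.el_mem 0 3 0) ?_)
    (R.conj_mem_of_mul (R.el_mem 0 0 2) ?_) <;> refine Units.ext (Matrix.ext fun i j => ?_)
  · rw [R.gX_eq, Units.val_mul, Units.val_mul, mul_apply, mul_apply, Finset.sum_eq_single j,
      Finset.sum_eq_single i]
    · simp only [el_apply, val_gS, add_zero, zero_add, if_true, one_mul]
      by_cases h : i = 2 * j
      · rw [if_pos h, h, show (3 : Fin 5) * (2 * j) = j by rw [← mul_assoc, show (3 : Fin 5) * 2 = 1 by decide, one_mul]]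
        ring
      · rw [if_neg h]; simp
    · intro k _ hk; rw [el_apply, if_neg (by simpa using Ne.symm hk), zero_mul]
    · intro h; exact absurd (Finset.mem_univ _) h
    · intro k _ hk; rw [el_apply, if_neg (by simpa using hk), mul_zero]
    · intro h; exact absurd (Finset.mem_univ _) h
  · rw [R.gA_eq, Units.val_mul, Units.val_mul, mul_apply, mul_apply, Finset.sum_eq_single (j + 1),
      Finset.sum_eq_single (i - 2)]
    · simp only [el_apply, val_gS, sub_add_cancel, if_true, zero_mul, add_zero, e_zero, one_mul,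
        mul_one]
      exact if_congr ⟨fun h => by rw [h]; ring, fun h => by linear_combination h⟩ rfl rfl
    · intro k _ hk; rw [el_apply, if_neg (fun h => hk (by rw [h, add_sub_cancel_right])), zero_mul]
    · intro h; exact absurd (Finset.mem_univ _) h
    · intro k _ hk; rw [el_apply, if_neg hk, mul_zero]
    · intro h; exact absurd (Finset.mem_univ _) h

theorem gQ_normalizer : R.gQ ∈ Subgroup.normalizer (R.Rs : Set (GL (Fin 5) F)) := by
  refine R.mem_normalizer_of_conj (R.conj_mem_of_mul (R.el_mem 1 1 3) ?_)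
    (R.conj_mem_of_mul R.gA_mem ?_) <;> refine Units.ext (Matrix.ext fun i j => ?_)
  · rw [R.gX_eq, Units.val_mul, Units.val_mul, mul_apply, mul_apply, Finset.sum_eq_single j,
      Finset.sum_eq_single (i - 3)]
    · show R.qM i j * _ = _ * R.qM (i - 3) j
      simp only [el_apply, qM, of_apply, sub_add_cancel, add_zero, if_true, ← e_add]
      congr 1
      revert i j; decide
    · intro k _ hk
      rw [el_apply, if_neg (fun h => hk (by rw [h, add_sub_cancel_right])), zero_mul]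
    · intro h; exact absurd (Finset.mem_univ _) h
    · intro k _ hk; rw [el_apply, if_neg (by simpa using hk), mul_zero]
    · intro h; exact absurd (Finset.mem_univ _) h
  · simp only [Units.val_mul, mul_gA_apply, gA_mul_apply]
    show R.qM i (j + 1) = R.qM (i - 1) j
    simp only [qM, of_apply]
    congr 1; ring

theorem gU_normalizer : R.gU ∈ Subgroup.normalizer (R.Rs : Set (GL (Fin 5) F)) :=
  mul_mem (mul_mem (mul_mem R.gT_normalizer R.gQ_normalizer) (inv_mem R.gT_normalizer))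
    (inv_mem R.gQ_normalizer)

end Root5

end Cfsg.Agent.MaxSub.CSixFive
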