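import Cfsg.Agent.MaxSub.CSixFive.CentT

/-!
An element of `C(J, T)` trivial on the `-1`-space of `J` is trivial or yields a sign change.
-/

set_option autoImplicit false
set_option linter.unusedSectionVars false
set_option linter.unusedSimpArgs false

namespace Cfsg.Agent.MaxSub.CSixFive

open Matrix Cfsg.Geo
open scoped MatrixGroups Fin.CommRing Fin.NatCast

variable {F : Type*} [Field F]

def eZ : Matrix (Fin 5) (Fin 5) ℤ := diagonal ![1, -1, 1, 1, -1]
def dZ : Matrix (Fin 5) (Fin 5) ℤ := diagonal ![1, -1, -1, -1, -1]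
def rZ : Matrix (Fin 5) (Fin 5) ℤ :=
  !![-1, 0, 0, 0, 0; 0, -1, 0, 0, 0; 0, 0, 0, 1, 0; 0, 0, 1, 0, 0; 0, 0, 0, 0, -1]

/-- The sign change on `e₁, e₄`. -/
def gE : GL (Fin 5) F := zG F eZ eZ (by decide +kernel) (by decide +kernel)
/-- The sign change off `e₀`. -/
def gD : GL (Fin 5) F := zG F dZ dZ (by decide +kernel) (by decide +kernel)
/-- A negated reflection. -/
def gR : GL (Fin 5) F := zG F rZ rZ (by decide +kernel) (by decide +kernel)

theorem val_zG {M N : Matrix (Fin 5) (Fin 5) ℤ} {h : M * N = 1} {h' : N * M = 1} :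
    ((zG F M N h h' : GL (Fin 5) F) : Matrix (Fin 5) (Fin 5) F) = zM M := rfl

theorem gE_eq_gD :
    (gE : GL (Fin 5) F) = gA * gD * gA ^ 4 * (gA ^ 4 * gD * gA) := by
  refine Units.ext ?_
  simp only [gE, gD, gA, Units.val_mul, Units.val_pow_eq_pow_val, val_zG, zM, ← map_mul, ← map_pow]
  exact congrArg _ (by decide +kernel)

/-- The conjugates of the negated reflection. -/
def wR (k : ℕ) : GL (Fin 5) F := gA ^ k * gR * gA ^ (5 - k)

theorem gE_eq_gR :
    (gE : GL (Fin 5) F) = wR 2 * wR 3 * wR 2 * (wR 1 * wR 0 * wR 4 * wR 0 * wR 1) := by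
  refine Units.ext ?_
  simp only [gE, wR, gR, gA, Units.val_mul, Units.val_pow_eq_pow_val, val_zG, zM, ← map_mul,
    ← map_pow]
  exact congrArg _ (by decide +kernel)

theorem mem_gE_of_gD {M : Subgroup (GL (Fin 5) F)} (hA : gA ∈ M) (hd : gD ∈ M) : gE ∈ M := by
  rw [gE_eq_gD]
  exact mul_mem (mul_mem (mul_mem hA hd) (pow_mem hA _)) (mul_mem (mul_mem (pow_mem hA _) hd) hA)

theorem mem_gE_of_gR {M : Subgroup (GL (Fin 5) F)} (hA : gA ∈ M) (hr : gR ∈ M) : gE ∈ M := by
  have hw : ∀ k, (wR k : GL (Fin 5) F) ∈ M := fun k =>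
    mul_mem (mul_mem (pow_mem hA _) hr) (pow_mem hA _)
  rw [gE_eq_gR]
  exact mul_mem (mul_mem (mul_mem (hw _) (hw _)) (hw _))
    (mul_mem (mul_mem (mul_mem (mul_mem (hw _) (hw _)) (hw _)) (hw _)) (hw _))

variable [Fintype F] {R : Root5 F} {M : Subgroup (GL (Fin 5) F)}

namespace Hyp

variable (H : Hyp R M)
include H

theorem gE_mem_of_aux {h : GL (Fin 5) F} (hM : h ∈ M) (hT : Commute h R.gT) (hJ : Commute h gJ)
    (c1 : (h : Matrix (Fin 5) (Fin 5) F) 1 1 = 0) (c2 : (h : Matrix (Fin 5) (Fin 5) F) 1 4 = -1)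
    (c3 : (h : Matrix (Fin 5) (Fin 5) F) 2 2 - (h : Matrix (Fin 5) (Fin 5) F) 2 3 = 1) :
    gE ∈ M := by
  have hz := H.mul_eq_zero_two hM hT hJ
  obtain ⟨-, -, -, -, a44, a41, -, -, -, -, a32, a33⟩ := CJ_eqs (mem_CJ.2 hJ)
  have hm := R.CT_matrix (R.mem_CT.2 hT)
  have hdet := GeoClasses.mem_specialLinear_iff.1 (H.le hM)
  simp only at hm
  rcases mul_eq_zero.1 hz with e | e
  · have e' : (h : Matrix (Fin 5) (Fin 5) F) 2 3 = -1 := by linear_combination e - c3
    have h00 : (h : Matrix (Fin 5) (Fin 5) F) 0 0 = 1 := by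
      rw [hm, a44, a41, a32, a33, c1, c2, e, e'] at hdet
      simp [Matrix.det_succ_row_zero, Fin.sum_univ_succ, Fin.succAbove] at hdet
      linear_combination hdet
    refine mem_gE_of_gD H.hA ?_
    have : gD = h * gJ := by
      refine Units.ext ?_
      rw [Units.val_mul, hm, a44, a41, a32, a33, c1, c2, e, e', h00]
      ext i j
      rw [mul_gJ_apply]
      fin_cases i <;> fin_cases j <;>
        simp [gD, val_zG, zM, dZ, neg_one_five, neg_two_five, neg_three_five, neg_four_five]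
    exact this ▸ mul_mem hM H.hJ
  · have e' : (h : Matrix (Fin 5) (Fin 5) F) 2 2 = 1 := by linear_combination c3 + e
    have h00 : (h : Matrix (Fin 5) (Fin 5) F) 0 0 = -1 := by
      rw [hm, a44, a41, a32, a33, c1, c2, e, e'] at hdet
      simp [Matrix.det_succ_row_zero, Fin.sum_univ_succ, Fin.succAbove] at hdet
      linear_combination -hdet
    refine mem_gE_of_gR H.hA ?_
    have : gR = h * gJ := by
      refine Units.ext ?_
      rw [Units.val_mul, hm, a44, a41, a32, a33, c1, c2, e, e', h00]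
      ext i j
      rw [mul_gJ_apply]
      fin_cases i <;> fin_cases j <;>
        simp [gR, val_zG, zM, rZ, neg_one_five, neg_two_five, neg_three_five, neg_four_five]
    exact this ▸ mul_mem hM H.hJ

/-- An element of `C(J, T)` trivial on the `-1`-space. -/
theorem eq_one_or_gE {h : GL (Fin 5) F} (hM : h ∈ M) (hT : Commute h R.gT) (hJ : Commute h gJ)
    (hr : matM (h : Matrix (Fin 5) (Fin 5) F) = 1) : h = 1 ∨ gE ∈ M := by
  have c1 := congrFun (congrFun hr 0) 0
  have c2 := congrFun (congrFun hr 1) 1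
  simp [matM] at c1 c2
  obtain ⟨-, -, -, -, a44, a41, -, -, -, -, a32, a33⟩ := CJ_eqs (mem_CJ.2 hJ)
  rcases mul_eq_zero.1 (H.mul_eq_zero_one hM hT hJ) with e | e
  · exact Or.inr (H.gE_mem_of_aux hM hT hJ e (by linear_combination e - c1) c2)
  rcases mul_eq_zero.1 (H.mul_eq_zero_two hM hT hJ) with f | f
  · refine Or.inr (H.gE_mem_of_aux (h := gS * h * gS⁻¹) (mul_mem (mul_mem H.hS hM) (inv_mem H.hS))
      (R.mem_CT.1 (R.gS_conj_mem_CT (R.mem_CT.2 hT)))
      (mem_CJ.1 (mul_mem (mul_mem gS_mem_CJ (mem_CJ.2 hJ)) (inv_mem gS_mem_CJ))) ?_ ?_ ?_)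
    all_goals simp only [gS_conj_apply, show (3 : Fin 5) * 1 = 3 from rfl,
      show (3 : Fin 5) * 4 = 2 from rfl, show (3 : Fin 5) * 2 = 1 from rfl,
      show (3 : Fin 5) * 3 = 4 from rfl, a32, a33]
    · exact f
    · linear_combination f - c2
    · exact c1
  · left
    have e' : (h : Matrix (Fin 5) (Fin 5) F) 1 1 = 1 := by linear_combination c1 + e
    have f' : (h : Matrix (Fin 5) (Fin 5) F) 2 2 = 1 := by linear_combination c2 + f
    have hm := R.CT_matrix (R.mem_CT.2 hT)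
    simp only at hm
    have hdet := GeoClasses.mem_specialLinear_iff.1 (H.le hM)
    rw [hm, a44, a41, a32, a33, e, e', f, f'] at hdet
    simp [Matrix.det_succ_row_zero, Fin.sum_univ_succ, Fin.succAbove] at hdet
    refine Units.ext ?_
    rw [hm, a44, a41, a32, a33, e, e', f, f', hdet, Units.val_one]
    ext i j
    fin_cases i <;> fin_cases j <;> simp

end Hyp

end Cfsg.Agent.MaxSub.CSixFive
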